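import Cfsg.Agent.MQ.Pc

/-! The principal 5-block. -/

set_option autoImplicit false
set_option linter.unusedSectionVars false

namespace MQ
open Cfsg H8 H2 Subgroup
open scoped ComplexConjugate

variable {G : Type*} [Group G] [Fintype G] [IsSimpleGroup G] {x y r w : G}

/-- the divisors of 945 -/
def D945 : List ℕ := [1, 3, 5, 7, 9, 15, 21, 27, 35, 45, 63, 105, 135, 189, 315, 945]

theorem chkC : ∀ c ∈ D945,
    ∀ a ∈ mv 5544 (239085 / c) (1024 * c), ∀ b ∈ mv 2024 (239085 / c) (1024 * c),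
    (48964608 - 8832 * (a * a) - 24192 * (b * b) + 7168 * ((a + b - 1) * (a + b - 1))) % 32768 = 0 →
    ∀ d ∈ mv 736 (239085 / c) (1024 * c), ((239085 / c : ℕ) * (a + b - d - 1)) % 6831 = 0 →
    (48964608 - 8832 * (a * a) - 24192 * (b * b) + 66528 * (d * d) +
        7168 * ((a + b - d - 1) * (a + b - d - 1))) % (32768 * c * c : ℕ) = 0 →
    1 + (a * a + b * b + d * d + (a + b - d - 1) * (a + b - d - 1)) ≤ (1024 * c : ℕ) →
    ∀ v ∈ [2, 32], ∀ k ∈ List.range (v + 1), ((k * k * (1024 * c) * (1024 * c) : ℕ) : ℤ) ≠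
      v * (48964608 - 8832 * (a * a) - 24192 * (b * b) + 66528 * (d * d) +
        7168 * ((a + b - d - 1) * (a + b - d - 1))) := by
  decide +kernel

theorem Full.sq_le {p n : ℕ} [Fact p.Prime] {h : DefOne p w} (F : Full h n) {g : G}
    {a : Fin n → ℤ} (ha : ∀ j, (F.c j).1 g = a j) : 1 + ∑ j, a j * a j ≤ Nat.card (Cx g) := by
  classical
  have h1 := sum_normSq g
  have h2 : ∑ χ ∈ insert (one1 G) (Finset.univ.image F.c), Complex.normSq (χ.1 g) ≤ _ :=
    (Finset.sum_le_sum_of_subset_of_nonneg (Finset.subset_univ _)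
      fun _ _ _ => Complex.normSq_nonneg _).trans_eq h1
  rw [Finset.sum_insert (by simpa using F.ne_one), Finset.sum_image F.inj.injOn] at h2
  simp only [ha, Pi.one_apply, map_one, Complex.normSq_intCast] at h2
  exact_mod_cast h2

namespace Loc
variable (L : Loc x y)
include L

theorem cx_dvd {g : G} (h1 : g ≠ 1) (a : ¬ 11 ∣ orderOf g) (b : ¬ 23 ∣ orderOf g) :
    Nat.card (Cx g) ∣ 967680 := by
  have h2 := card_subgroup_dvd_card (Cx g)
  rw [L.hN, show 244823040 = 23 * (11 * 967680) from rfl] at h2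
  exact ((Nat.Prime.coprime_iff_not_dvd (by norm_num)).2
    (L.hy.not_dvd_card_Cx L.vy h1 a)).symm.dvd_of_dvd_mul_left
    (((Nat.Prime.coprime_iff_not_dvd (by norm_num)).2
      (L.hx.not_dvd_card_Cx L.vx h1 b)).symm.dvd_of_dvd_mul_left h2)

theorem index_eq (g : G) : (Cx g).index = 244823040 / Nat.card (Cx g) := by
  rw [← L.hN, ← (Cx g).card_mul_index, Nat.mul_div_cancel_left _ Nat.card_pos]

/-- a 2-central involution -/
theorem exists_z : ∃ z : G, orderOf z = 2 ∧ ∃ c ∈ D945, Nat.card (Cx z) = 1024 * c ∧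
    (Cx z).index = 239085 / c := by
  obtain ⟨z, oz, iz⟩ := exists_central_of_prime (G := G) 2 (by rw [L.hN]; norm_num)
  have z1 : z ≠ 1 := fun e => by simp [e] at oz
  have h1 := L.cx_dvd z1 (by rw [oz]; norm_num) (by rw [oz]; norm_num)
  have h2 := (Cx z).card_mul_index
  obtain ⟨c, hc⟩ : 2 ^ 10 ∣ Nat.card (Cx z) :=
    (Nat.Coprime.pow_left 10 ((Nat.Prime.coprime_iff_not_dvd Nat.prime_two).2
      iz)).dvd_of_dvd_mul_right (by rw [h2, L.hN]; norm_num)
  rw [hc, show 967680 = 2 ^ 10 * 945 from rfl, Nat.mul_dvd_mul_iff_left (by norm_num)] at h1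
  have h3 : ∀ c ∈ Nat.divisors 945, c ∈ D945 := by decide +kernel
  refine ⟨z, oz, c, h3 c (Nat.mem_divisors.2 ⟨h1, by norm_num⟩), hc, ?_⟩
  rw [L.index_eq, hc, ← Nat.div_div_eq_div_mul]

/-- the value at an involution -/
theorem inv_mv {u : G} (ou : orderOf u = 2) {χ : IrrCharacter G} (h1 : χ ≠ one1 G) :
    ∃ a : ℤ, χ.1 u = a ∧ (deg χ : ℤ) ∣ (Cx u).index * a ∧
      a ∈ mv (deg χ) (Cx u).index (Nat.card (Cx u)) := by
  have u1 : u ≠ 1 := fun e => by simp [e] at ou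
  obtain ⟨a, ha, h4⟩ := inv_val L.perf χ (z := u) (ou ▸ pow_orderOf_eq_one u)
  have h2 := sq_list_le (l := [one1 G, χ]) (by simpa using h1.symm) u
  simp only [List.map_cons, List.map_nil, List.sum_cons, List.sum_nil, ha, Pi.one_apply, map_one,
    Complex.normSq_intCast] at h2
  have h3 : 1 + (a * a + 0) ≤ (Nat.card (Cx u) : ℤ) := by exact_mod_cast h2
  exact ⟨a, ha, irr_deg_dvd_index_mul χ ha, mem_mv (deg_pos χ) (Nat.le_of_dvd (by norm_num)
    (L.cx_dvd u1 (by rw [ou]; norm_num) (by rw [ou]; norm_num))) (irr_deg_dvd_index_mul χ ha)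
    (by omega) h4 (irr_int_abs_lt L.nc h1 u1 ha)⟩

variable (n23 : ∀ χ : IrrCharacter G, deg χ ≠ 23)
include n23

/-- THE PRINCIPAL 5-BLOCK: degrees 1, 5544, 2024, 1771, 5796 -/
theorem b5c {h : DefOne 5 r} (F : Full h 4) : deg (F.c 2) = 1771 ∧ deg (F.c 3) = 5796 := by
  obtain ⟨⟨s0, d0⟩, ⟨s1, d1⟩, ⟨s2, s3⟩, e | ⟨d2, d3, hv⟩, -⟩ := L.b5 n23 F
  · exact e
  exfalso
  obtain ⟨z, oz, c, hc, cz, iz⟩ := L.exists_z
  choose a ha hd hm using fun j => L.inv_mv oz (F.ne_one j)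
  have z2 : z ^ 2 = 1 := oz ▸ pow_orderOf_eq_one z
  have l := Full.lin' F (by rw [oz]; norm_num) ha
  have q := Full.sq_le F ha
  have e := Full.prs_eq F z z
  rw [prs_kk h (by norm_num) z2 z2] at e
  have k := kk_le h z
  have m0 := hm 0; have m1 := hm 1; have m2 := hm 2; have m3 := hd 3; have m4 := hd 2
  simp only [Fin.sum_univ_four, s0, s1, s2, s3, d0, d1, d2, d3, ha, cz, L.hN] at l q e m0 m1 m2 m3 m4
  have a3 : a 3 = a 0 + a 1 - a 2 - 1 := by omega
  have iN : ((Cx z).index : ℂ) = 244823040 / (1024 * c) := by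
    have := (Cx z).card_mul_index
    rw [cz, L.hN] at this
    have c0 : (c : ℂ) ≠ 0 := by rintro e; rw [Nat.cast_eq_zero] at e; simp [e] at this
    rw [eq_div_iff (by simpa using c0)]
    exact_mod_cast (mul_comm _ _).trans this
  have c0 : (c : ℂ) ≠ 0 := by
    rintro e; rw [Nat.cast_eq_zero] at e; subst e; revert hc; decide
  have E : ((kk h z * kk h z * (1024 * c) * (1024 * c) : ℕ) : ℤ) = (Nat.card h.V : ℕ) *
      (48964608 - 8832 * (a 0 * a 0) - 24192 * (a 1 * a 1) + 66528 * (a 2 * a 2) +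
        7168 * (a 3 * a 3)) := by
    rw [iN] at e
    have : (((kk h z * kk h z * (1024 * c) * (1024 * c) : ℕ) : ℤ) : ℂ) = (((Nat.card h.V : ℕ) *
      (48964608 - 8832 * (a 0 * a 0) - 24192 * (a 1 * a 1) + 66528 * (a 2 * a 2) +
        7168 * (a 3 * a 3)) : ℤ) : ℂ) := by
      push_cast at e ⊢
      field_simp at e
      linear_combination (1 / (5 * 5544 * 2024 * 736 * 6831)) * e
    exact_mod_cast this
  rw [iz] at m0 m1 m2 m3 m4
  obtain ⟨d, hd⟩ : (32 : ℤ) ∣ a 2 := by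
    have : ∀ c ∈ D945, Int.gcd 32 (239085 / c : ℕ) = 1 := by decide
    exact Int.dvd_of_dvd_mul_right_of_gcd_one (.trans (by norm_num) m4) (this c hc)
  rw [a3] at E q m3
  have R : ((32768 * c * c : ℕ) : ℤ) ∣ 48964608 - 8832 * (a 0 * a 0) - 24192 * (a 1 * a 1) +
      66528 * (a 2 * a 2) + 7168 * ((a 0 + a 1 - a 2 - 1) * (a 0 + a 1 - a 2 - 1)) := by
    simp only [List.mem_cons, List.not_mem_nil, or_false] at hv
    rcases hv with e | e <;> rw [e] at E <;> push_cast at E ⊢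
    · exact ⟨16 * kk h z * kk h z, by linarith⟩
    · exact ⟨kk h z * kk h z, by linarith⟩
  refine chkC c hc _ m0 _ m1 (Int.emod_eq_zero_of_dvd ?_) _ m2 (Int.emod_eq_zero_of_dvd m3)
    (Int.emod_eq_zero_of_dvd R) (by linarith) _ hv _ (List.mem_range.2 (Nat.lt_succ_of_le k)) E
  obtain ⟨t, ht⟩ := R
  rw [hd] at ht
  exact ⟨c * c * t - 2079 * d * d + 14 * d * (a 0 + a 1 - 1) - 224 * d * d, by
    push_cast at ht; linear_combination ht⟩

end Loc
end MQ
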