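import Cfsg.Agent.MQ.D3

/-! Characters of `2`-defect two. -/

set_option autoImplicit false
set_option linter.unusedSectionVars false

namespace MQ
open Cfsg H8 L Subgroup D3
open scoped ComplexConjugate Classical

instance fact2 : Fact (Nat.Prime 2) := ⟨Nat.prime_two⟩

theorem D3.same_part {G : Type*} [Group G] [Fintype G] {p : ℕ} [hp : Fact p.Prime]
    {φ ψ : IrrCharacter G} (h1 : UU p (ww p φ ψ)) {k : ℕ} (h : p ^ k ∣ deg φ) : p ^ k ∣ deg ψ := by
  obtain ⟨a, m, hm, hG, -, -⟩ := exists_card_eq (p := p) (G := G)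
  replace hG : Nat.card G = p ^ (0 + a) * m := by simpa using hG
  obtain ⟨n, hn⟩ := coef hG hm (χ := φ) (by simp) ψ
  obtain ⟨n', hn'⟩ := coef hG hm (χ := ψ) (by simp) φ
  have h0 : (p : ℂ) ^ a ≠ 0 := pow_ne_zero _ (Nat.cast_ne_zero.mpr hp.out.ne_zero)
  have e : classInner (cf p ψ.1) φ.1 = classInner (cf p φ.1) ψ.1 :=
    mul_left_cancel₀ h0 (by rw [hn, hn', coef_symm hn hn'])
  have e1 := ww_eq (p := p) φ ψ
  rw [e, ← ww_eq] at e1
  obtain ⟨r, hr⟩ := h
  have := pow_dvd_of_II (k := k) (z := deg ψ)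
    (((II_ww (p := p) ψ φ).mul (II_natCast r)).mul h1.inv.II) (by
      have := h1.ne_zero
      rw [hr] at e1
      push_cast at e1 ⊢
      field_simp
      linear_combination e1)
  exact_mod_cast this

/-- Characters of `2`-defect two. -/
theorem d2 {G : Type*} [Group G] [Fintype G] (h1 : 1024 ∣ Nat.card G) (h2 : ¬ 2048 ∣ Nat.card G)
    (χ : IrrCharacter G) (h8 : 256 ∣ deg χ) (h9 : ¬ 512 ∣ deg χ) :
    (∃ S : Finset (IrrCharacter G), S.card = 4 ∧ χ ∈ S ∧ ∀ ψ ∈ S, 256 ∣ deg ψ ∧ ¬ 512 ∣ deg ψ) ∨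
    ∃ ψ : Fin 4 → IrrCharacter G, Function.Injective ψ ∧ (∀ i, ψ i ≠ χ) ∧ ∃ ε : Fin 4 → ℤ,
      (∀ i, ε i = 1 ∨ ε i = -1) ∧
      (∀ g, ¬ 2 ∣ orderOf g → 2 * χ.1 g = ∑ i, ε i * (ψ i).1 g) ∧
      (∀ g, 2 ∣ orderOf g → 2 * χ.1 g + ∑ i, ε i * (ψ i).1 g = 0) ∧
      (∀ i j, UU 2 (ww 2 (ψ i) (ψ j))) ∧ ∀ i j k, 2 ^ k ∣ deg (ψ i) → 2 ^ k ∣ deg (ψ j) := by
  obtain ⟨m, hG⟩ := h1
  have hm : ¬ 2 ∣ m := fun ⟨t, ht⟩ => h2 ⟨t, by rw [hG, ht]; ring⟩
  replace hG : Nat.card G = 2 ^ (8 + 2) * m := hG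
  choose n hn using fun ψ => coef (p := 2) hG hm (χ := χ) h8 ψ
  obtain ⟨a1, a2, a3⟩ := diag hG two_pos h9 hn
  have h3 : ((2 : ℕ) : ℂ) ^ 2 ≠ 0 := by norm_num
  have hne : ∀ ψ, n ψ ≠ 0 ↔ classInner (cf 2 χ.1) ψ.1 ≠ 0 := fun ψ => by
    rw [← Int.cast_ne_zero (α := ℂ), ← hn, mul_ne_zero_iff, and_iff_right h3]
  have hsy : ∀ ψ, ((2 : ℕ) : ℂ) ^ 2 * classInner (cf 2 ψ.1) χ.1 = n ψ := fun ψ => by
    rw [inner_cf_symm, ← map_intCast (starRingEnd ℂ), ← hn, map_mul, map_pow, map_natCast]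
  have hle : ∀ i ∈ Finset.univ.erase χ, n i * n i ≤ n χ * (((2 : ℕ) : ℤ) ^ 2 - n χ) := fun i hi =>
    a3 ▸ Finset.single_le_sum (f := fun ψ => n ψ * n ψ) (fun _ _ => mul_self_nonneg _) hi
  push_cast at a2 a3 hle
  by_cases a4 : n χ = 2
  · right
    rw [a4] at a3 hle
    have hx : ∀ g, ((2 : ℕ) : ℂ) ^ 2 * cf 2 χ.1 g =
        2 * χ.1 g + ∑ ψ ∈ Finset.univ.erase χ, n ψ * ψ.1 g := fun g => by
      rw [expand hn, ← Finset.add_sum_erase _ _ (Finset.mem_univ χ), a4]; simp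
    obtain ⟨b1, b2⟩ := supp_card (Finset.univ.erase χ) n fun i hi => by
      refine lt_of_le_of_ne (hle i hi) fun h4 => h9 ?_
      have h5 : ∀ ψ ∈ Finset.univ.erase χ, ψ ≠ i → n ψ = 0 := fun ψ hψ hψi => by
        rw [← Finset.add_sum_erase _ _ hi] at a3
        exact mul_self_eq_zero.mp ((Finset.sum_eq_zero_iff_of_nonneg
          (s := (Finset.univ.erase χ).erase i)
          (f := fun ψ => n ψ * n ψ) fun _ _ => mul_self_nonneg _).mp (by linarith) ψ
          (Finset.mem_erase.mpr ⟨hψi, hψ⟩))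
      have hy : ∀ g, ((2 : ℕ) : ℂ) ^ 2 * cf 2 χ.1 g = 2 * χ.1 g + n i * i.1 g := fun g => by
        rw [hx, Finset.sum_eq_single_of_mem i hi fun ψ hψ hψi => by simp [h5 ψ hψ hψi]]
      obtain ⟨e, he⟩ : ∃ e : ℤ, n i = 2 * e := by
        rcases mul_self_eq_mul_self_iff.mp (show n i * n i = 2 * 2 from h4) with h | h
        exacts [⟨1, by omega⟩, ⟨-1, by omega⟩]
      have h6 := dvd_of_vanish (p := 2) (genChar_add (genChar_of_irr χ.2)
        (genChar_intCast_smul (genChar_of_irr i.2) e)) (a := 10) ⟨m, hG⟩ (fun g hg => by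
          have := hy g
          rw [cf_sing _ hg, he] at this
          simp only [Pi.add_apply, Pi.smul_apply, smul_eq_mul]
          push_cast at this
          linear_combination -this / 2) (z := 2 * deg χ) (by
          have := hy 1
          rw [cf_one, he] at this
          simp only [Pi.add_apply, Pi.smul_apply, smul_eq_mul]
          push_cast at this ⊢
          rw [← deg_eq]
          linear_combination -this / 2)
      push_cast at h6
      omega
    rw [a3] at b2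
    set S := (Finset.univ.erase χ).filter (n · ≠ 0) with hS
    have hc : S.card = 4 := by omega
    let e := (S.equivFinOfCardEq hc).symm
    have hm' : ∀ i, (e i).1 ≠ χ ∧ n (e i).1 ≠ 0 := fun i => by
      have := Finset.mem_filter.mp (e i).2
      exact ⟨(Finset.mem_erase.mp this.1).1, this.2⟩
    have hsum : ∀ g, ∑ ψ ∈ Finset.univ.erase χ, (n ψ : ℂ) * ψ.1 g =
        ∑ i, (n (e i).1 : ℂ) * (e i).1.1 g := fun g => by
      rw [Equiv.sum_comp e (fun ψ => (n ψ.1 : ℂ) * ψ.1.1 g),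
        Finset.sum_coe_sort S (fun ψ => (n ψ : ℂ) * ψ.1 g), hS,
        Finset.sum_filter_of_ne (p := fun ψ => n ψ ≠ 0) fun ψ _ h1 h2 => h1 (by simp [h2])]
    have hU : ∀ i j, UU 2 (ww 2 (e i).1 (e j).1) := fun i j => by
      have := b1 _ (e i).2
      exact close _ (UU_of_deg hG hm (hn (e i).1) (by omega) h8 h9).not_MM
        ((hne _).mp (hm' j).2)
    refine ⟨fun i => (e i).1, Subtype.val_injective.comp e.injective, fun i => (hm' i).1,
      fun i => n (e i).1, fun i => b1 _ (e i).2, fun g hg => ?_, fun g hg => ?_, hU,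
      fun i j k h => same_part (hU i j) h⟩
    · have := hx g
      rw [cf_reg _ hg, hsum] at this
      push_cast at this
      linear_combination this
    · have := hx g
      rw [cf_sing _ hg, hsum] at this
      linear_combination -this
  · left
    have a5 : n χ = 1 ∨ n χ = 3 := by omega
    have a6 : n χ * (4 - n χ) = 3 := by rcases a5 with h | h <;> rw [h] <;> norm_num
    rw [a6] at a3 hle
    obtain ⟨b1, b2⟩ := supp_card (Finset.univ.erase χ) n fun i hi => by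
      have := hle i hi; omega
    rw [a3] at b2
    have hU : UU 2 (ww 2 χ χ) := UU_of_deg hG hm (hn χ) (by omega) h8 h9
    refine ⟨insert χ ((Finset.univ.erase χ).filter (n · ≠ 0)), ?_, by simp, fun ψ hψ => ?_⟩
    · rw [Finset.card_insert_of_notMem (by simp)]
      omega
    · rcases Finset.mem_insert.mp hψ with rfl | hψ
      · exact ⟨h8, h9⟩
      · have := b1 ψ hψ
        exact deg_of_UU hG hm (hsy ψ) (by omega)
          (close χ hU.not_MM ((hne ψ).mp (by omega)))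

end MQ
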