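import Cfsg.Agent.MQ.D3b

/-! Characters of `3`-defect one. -/

set_option autoImplicit false
set_option linter.unusedSectionVars false

namespace MQ.D3
open Cfsg H8 L Subgroup
open scoped ComplexConjugate Classical

theorem supp_card {ι : Type*} (S : Finset ι) (n : ι → ℤ) (h : ∀ i ∈ S, n i * n i < 4) :
    (∀ i ∈ S.filter (n · ≠ 0), n i = 1 ∨ n i = -1) ∧
      ((S.filter (n · ≠ 0)).card : ℤ) = ∑ i ∈ S, n i * n i := by
  have h1 : ∀ i ∈ S.filter (n · ≠ 0), n i = 1 ∨ n i = -1 := fun i hi => by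
    obtain ⟨h2, h3⟩ := Finset.mem_filter.mp hi
    have h4 := h i h2
    have : n i < 2 := by nlinarith
    have : -2 < n i := by nlinarith
    omega
  refine ⟨h1, ?_⟩
  rw [← Finset.sum_filter_of_ne (p := (n · ≠ 0)) (fun i _ h2 h3 => h2 (by rw [h3, mul_zero])),
    Finset.card_eq_sum_ones]
  push_cast
  refine Finset.sum_congr rfl fun i hi => ?_
  rcases h1 i hi with h | h <;> rw [h] <;> norm_num

variable {G : Type*} [Group G] [Fintype G] {p : ℕ} [hp : Fact p.Prime]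

/-- The diagonal coefficient lies strictly between `0` and `p ^ c`. -/
theorem diag {b c m : ℕ} (hG : Nat.card G = p ^ (b + c) * m) (hc : 0 < c)
    {χ : IrrCharacter G} (hχ : ¬ p ^ (b + 1) ∣ deg χ) {n : IrrCharacter G → ℤ}
    (hn : ∀ ψ : IrrCharacter G, (p : ℂ) ^ c * classInner (cf p χ.1) ψ.1 = n ψ) :
    0 < n χ ∧ n χ < p ^ c ∧
      ∑ ψ ∈ Finset.univ.erase χ, n ψ * n ψ = n χ * (p ^ c - n χ) := by
  have h1 := sum_sq hn hn
  rw [← Finset.add_sum_erase _ _ (Finset.mem_univ χ)] at h1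
  have h2 : 0 ≤ ∑ ψ ∈ Finset.univ.erase χ, n ψ * n ψ :=
    Finset.sum_nonneg fun _ _ => mul_self_nonneg _
  have hq : (0 : ℤ) < p ^ c := pow_pos (by exact_mod_cast hp.out.pos) _
  have h0 : (p : ℂ) ^ c ≠ 0 := pow_ne_zero _ (Nat.cast_ne_zero.mpr hp.out.ne_zero)
  have key : n χ * (p ^ c - n χ) = 0 → ∀ g, (p : ℂ) ^ c * cf p χ.1 g = n χ * χ.1 g := by
    intro h g
    rw [expand hn, Finset.sum_eq_single χ]
    · intro ψ _ hψ
      have := (Finset.sum_eq_zero_iff_of_nonneg (s := Finset.univ.erase χ)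
        (f := fun ψ => n ψ * n ψ) fun _ _ => mul_self_nonneg _).mp (by linarith) ψ (by simp [hψ])
      rw [mul_self_eq_zero.mp this]; simp
    · simp
  have ha : n χ ≠ 0 := fun h => by
    have := key (by rw [h, zero_mul]) 1
    rw [cf_one, h] at this
    exact mul_ne_zero h0 (irr_apply_one_ne_zero χ.2) (by simpa using this)
  have hb : n χ ≠ p ^ c := fun h => by
    have h3 := dvd_of_vanish (p := p) (genChar_of_irr χ.2) (a := b + 1)
      ((pow_dvd_pow p (by omega)).trans ⟨m, hG⟩) (fun g hg => by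
        have := key (by rw [h, sub_self, mul_zero]) g
        rw [cf_sing _ hg, h, mul_zero] at this
        push_cast at this
        exact (mul_eq_zero.mp this.symm).resolve_left h0) (z := deg χ) (by simp [deg_eq])
    exact hχ (by exact_mod_cast h3)
  refine ⟨lt_of_le_of_ne (by nlinarith) ha.symm, lt_of_le_of_ne (by nlinarith) hb, by linarith⟩

end MQ.D3

namespace MQ
open Cfsg H8 L Subgroup D3
open scoped ComplexConjugate Classical

instance fact3 : Fact (Nat.Prime 3) := ⟨Nat.prime_three⟩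

/-- Characters of `3`-defect one come in triples. -/
theorem d3 {G : Type*} [Group G] [Fintype G] (h27 : 27 ∣ Nat.card G) (h81 : ¬ 81 ∣ Nat.card G)
    (χ : IrrCharacter G) (h9 : 9 ∣ deg χ) (h9' : ¬ 27 ∣ deg χ) :
    ∃ ψ₁ ψ₂ : IrrCharacter G, ψ₁ ≠ ψ₂ ∧ ψ₁ ≠ χ ∧ ψ₂ ≠ χ ∧ (9 ∣ deg ψ₁ ∧ ¬ 27 ∣ deg ψ₁) ∧
      (9 ∣ deg ψ₂ ∧ ¬ 27 ∣ deg ψ₂) ∧ ∃ ε₁ ε₂ : ℤ, (ε₁ = 1 ∨ ε₁ = -1) ∧ (ε₂ = 1 ∨ ε₂ = -1) ∧
      (((∀ g, ¬ 3 ∣ orderOf g → χ.1 g = ε₁ * ψ₁.1 g + ε₂ * ψ₂.1 g) ∧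
          ∀ g, 3 ∣ orderOf g → ε₁ * ψ₁.1 g = -χ.1 g ∧ ε₂ * ψ₂.1 g = -χ.1 g) ∨
        ((∀ g, ¬ 3 ∣ orderOf g → ψ₁.1 g = χ.1 g ∧ ψ₂.1 g = χ.1 g) ∧
          ∀ g, 3 ∣ orderOf g → χ.1 g + ψ₁.1 g + ψ₂.1 g = 0)) := by
  obtain ⟨m, hG⟩ := h27
  have hm : ¬ 3 ∣ m := fun ⟨t, ht⟩ => h81 ⟨t, by rw [hG, ht]; ring⟩
  replace hG : Nat.card G = 3 ^ (2 + 1) * m := hG
  have H : ∀ φ : IrrCharacter G, 9 ∣ deg φ → ∃ n : IrrCharacter G → ℤ,
      ∀ ψ : IrrCharacter G, ((3 : ℕ) : ℂ) ^ 1 * classInner (cf 3 φ.1) ψ.1 = n ψ := fun φ hφ => by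
    choose n hn using fun ψ => coef (p := 3) hG hm (χ := φ) hφ ψ
    exact ⟨n, hn⟩
  obtain ⟨n, hn⟩ := H χ h9
  obtain ⟨a1, a2, a3⟩ := diag hG one_pos h9' hn
  have a4 : n χ = 1 ∨ n χ = 2 := by push_cast at a2; omega
  have a5 : ∑ ψ ∈ Finset.univ.erase χ, n ψ * n ψ = 2 := by
    rw [a3]; rcases a4 with h | h <;> rw [h] <;> norm_num
  obtain ⟨b1, b2⟩ := supp_card (Finset.univ.erase χ) n fun i hi => by
    have := Finset.single_le_sum (f := fun ψ => n ψ * n ψ) (fun _ _ => mul_self_nonneg _) hi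
    omega
  rw [a5] at b2
  obtain ⟨ψ₁, ψ₂, h12, hS⟩ := Finset.card_eq_two.mp (by exact_mod_cast b2)
  have hS' : ∀ ψ, ψ ≠ χ ∧ n ψ ≠ 0 ↔ ψ = ψ₁ ∨ ψ = ψ₂ := fun ψ => by
    simpa using Finset.ext_iff.mp hS ψ
  rw [hS] at b1
  have e1 := b1 ψ₁ (by simp)
  have e2 := b1 ψ₂ (by simp)
  have c1 := ((hS' ψ₁).mpr (Or.inl rfl)).1
  have c2 := ((hS' ψ₂).mpr (Or.inr rfl)).1
  have tri : ∀ {M : Type} [AddCommMonoid M] (f : IrrCharacter G → M),
      (∀ ψ, n ψ = 0 → f ψ = 0) → ∑ ψ, f ψ = f χ + f ψ₁ + f ψ₂ := fun f hf => by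
    rw [← Finset.add_sum_erase _ _ (Finset.mem_univ χ), add_assoc, ← Finset.sum_pair h12, ← hS,
      Finset.sum_filter_of_ne (p := fun ψ => ¬ n ψ = 0) fun ψ _ h1 h2 => h1 (hf ψ h2)]
  have hU : UU 3 (ww 3 χ χ) := UU_of_deg hG hm (hn χ) (by omega) h9 h9'
  have h3 : ((3 : ℕ) : ℂ) ^ 1 ≠ 0 := by norm_num
  have hne : ∀ ψ, n ψ ≠ 0 ↔ classInner (cf 3 χ.1) ψ.1 ≠ 0 := fun ψ => by
    rw [← Int.cast_ne_zero (α := ℂ), ← hn, mul_ne_zero_iff, and_iff_right h3]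
  have hsy : ∀ ψ, ((3 : ℕ) : ℂ) ^ 1 * classInner (cf 3 ψ.1) χ.1 = n ψ := fun ψ => by
    rw [inner_cf_symm, ← map_intCast (starRingEnd ℂ), ← hn, map_mul, map_pow, map_natCast]
  have hUψ : ∀ ψ, n ψ ≠ 0 → UU 3 (ww 3 χ ψ) := fun ψ h => close χ hU.not_MM ((hne ψ).mp h)
  have d1 := deg_of_UU hG hm (hsy ψ₁) (by omega) (hUψ ψ₁ (by omega))
  have d2 := deg_of_UU hG hm (hsy ψ₂) (by omega) (hUψ ψ₂ (by omega))
  have hx : ∀ g, ((3 : ℕ) : ℂ) ^ 1 * cf 3 χ.1 g =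
      n χ * χ.1 g + n ψ₁ * ψ₁.1 g + n ψ₂ * ψ₂.1 g := fun g => by
    rw [expand hn, tri _ fun ψ h => by simp [h]]
  refine ⟨ψ₁, ψ₂, h12, c1, c2, d1, d2, n ψ₁, n ψ₂, e1, e2, ?_⟩
  obtain ⟨k, hk⟩ := H ψ₁ d1.1
  have k0 : ∀ ψ, n ψ = 0 → k ψ = 0 := fun ψ h => by
    by_contra h'
    have h1 : classInner (cf 3 ψ₁.1) ψ.1 ≠ 0 := fun h2 => h' (by
      have := hk ψ
      rw [h2, mul_zero] at this
      exact_mod_cast this.symm)
    have h2 := ne_zero_of_UU (close χ (hUψ ψ₁ (by omega)).not_MM h1)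
    have h4 := hsy ψ
    rw [h] at h4
    exact mul_ne_zero h3 h2 (by simpa using h4)
  have k1 : k χ = n ψ₁ := coef_symm (hn ψ₁) (hk χ)
  have k2 := sum_sq hn hk
  have k3 := sum_sq hk hk
  rw [tri _ fun ψ h => by simp [h]] at k2
  rw [tri _ fun ψ h => by simp [k0 ψ h]] at k3
  have hy : ∀ g, ((3 : ℕ) : ℂ) ^ 1 * cf 3 ψ₁.1 g =
      k χ * χ.1 g + k ψ₁ * ψ₁.1 g + k ψ₂ * ψ₂.1 g := fun g => by
    rw [expand hk, tri _ fun ψ h => by simp [k0 ψ h]]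
  rcases a4 with a4 | a4
  · right
    rw [k1, a4] at k2
    rw [k1] at k3
    push_cast at k2 k3
    have k4 : k ψ₁ = 1 ∧ k ψ₂ = n ψ₁ * n ψ₂ := by
      have : 0 ≤ k ψ₁ := by nlinarith
      have : k ψ₁ ≤ 3 := by nlinarith
      rcases e1 with e1 | e1 <;> rcases e2 with e2 | e2 <;> rw [e1, e2] at k2 ⊢ <;>
        rw [e1] at k3 <;>
        (have : k ψ₁ = 0 ∨ k ψ₁ = 1 ∨ k ψ₁ = 2 ∨ k ψ₁ = 3 := by omega) <;>
        rcases this with h | h | h | h <;> rw [h] at k2 k3 ⊢ <;>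
        first
          | omega
          | (exfalso
             have h5 : k ψ₂ = 2 ∨ k ψ₂ = -2 ∨ k ψ₂ = 0 ∨ k ψ₂ = 1 ∨ k ψ₂ = -1 := by omega
             rcases h5 with h5 | h5 | h5 | h5 | h5 <;> rw [h5] at k2 k3 <;> omega)
    have s1 : ∀ g, ¬ 3 ∣ orderOf g → ψ₁.1 g = n ψ₁ * χ.1 g ∧ ψ₂.1 g = n ψ₂ * χ.1 g := fun g hg => by
      have h1 := hx g
      have h2 := hy g
      rw [cf_reg _ hg] at h1 h2
      rw [k1, k4.1, k4.2] at h2
      rw [a4] at h1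
      rcases e1 with e1 | e1 <;> rcases e2 with e2 | e2 <;> rw [e1, e2] at h1 h2 ⊢ <;>
        push_cast at h1 h2 ⊢ <;> constructor
      · linear_combination (h2 - h1) / 3
      · linear_combination (-h2 - 2 * h1) / 3
      · linear_combination (h2 - h1) / 3
      · linear_combination (h2 + 2 * h1) / 3
      · linear_combination (h2 + h1) / 3
      · linear_combination (h2 - 2 * h1) / 3
      · linear_combination (h2 + h1) / 3
      · linear_combination (-h2 + 2 * h1) / 3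
    obtain ⟨t1, t2⟩ := s1 1 (by simp)
    simp only [deg_eq] at t1 t2
    have p0 := deg_pos χ
    have p1 := deg_pos ψ₁
    have p2 := deg_pos ψ₂
    have t1' : (deg ψ₁ : ℤ) = n ψ₁ * deg χ := by exact_mod_cast t1
    have t2' : (deg ψ₂ : ℤ) = n ψ₂ * deg χ := by exact_mod_cast t2
    have f1 : n ψ₁ = 1 := e1.resolve_right fun h => by rw [h] at t1'; omega
    have f2 : n ψ₂ = 1 := e2.resolve_right fun h => by rw [h] at t2'; omega
    refine ⟨fun g hg => by simpa [f1, f2] using s1 g hg, fun g hg => ?_⟩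
    have h1 := hx g
    rw [cf_sing _ hg, a4, f1, f2] at h1
    push_cast at h1
    linear_combination -h1
  · left
    refine ⟨fun g hg => ?_, fun g hg => ?_⟩
    · have h1 := hx g
      rw [cf_reg _ hg, a4] at h1
      push_cast at h1
      linear_combination h1
    · rw [k1, a4] at k2
      rw [k1] at k3
      push_cast at k2 k3
      have k4 : k ψ₁ = 2 ∧ k ψ₂ = -(n ψ₁ * n ψ₂) := by
        have : 0 ≤ k ψ₁ := by nlinarith
        have : k ψ₁ ≤ 3 := by nlinarith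
        rcases e1 with e1 | e1 <;> rcases e2 with e2 | e2 <;> rw [e1, e2] at k2 ⊢ <;>
          rw [e1] at k3 <;>
          (have : k ψ₁ = 0 ∨ k ψ₁ = 1 ∨ k ψ₁ = 2 ∨ k ψ₁ = 3 := by omega) <;>
          rcases this with h | h | h | h <;> rw [h] at k2 k3 ⊢ <;>
          first
            | omega
            | (exfalso
               have h5 : k ψ₂ = 2 ∨ k ψ₂ = -2 ∨ k ψ₂ = 0 ∨ k ψ₂ = 1 ∨ k ψ₂ = -1 := by omega
               rcases h5 with h5 | h5 | h5 | h5 | h5 <;> rw [h5] at k2 k3 <;> omega)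
      have h1 := hx g
      have h2 := hy g
      rw [cf_sing _ hg] at h1 h2
      rw [k1, k4.1, k4.2] at h2
      rw [a4] at h1
      rcases e1 with e1 | e1 <;> rcases e2 with e2 | e2 <;> rw [e1, e2] at h1 h2 ⊢ <;>
        push_cast at h1 h2 ⊢ <;> constructor
      · linear_combination (-h1 - h2) / 3
      · linear_combination (h2 - 2 * h1) / 3
      · linear_combination (-h1 - h2) / 3
      · linear_combination (h2 - 2 * h1) / 3
      · linear_combination (-h1 + h2) / 3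
      · linear_combination (-h2 - 2 * h1) / 3
      · linear_combination (-h1 + h2) / 3
      · linear_combination (-h2 - 2 * h1) / 3

end MQ
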