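import Cfsg.Agent.MQ.B5c

/-! Triples of characters of 3-defect one in a simple group of order 244823040. -/

set_option autoImplicit false
set_option linter.unusedSectionVars false

namespace MQ
open Cfsg H8 H2 Subgroup
open scoped ComplexConjugate

variable {G : Type*} [Group G] [Fintype G] {x y r : G} {a b c d e : IrrCharacter G}

/-- the degree is exactly divisible by 9 -/
def N9 (χ : IrrCharacter G) : Prop := 9 ∣ deg χ ∧ ¬ 27 ∣ deg χ

/-- a triple `c = a + b` -/
structure Tri (a b c : IrrCharacter G) : Prop where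
  ab : a ≠ b
  ac : a ≠ c
  bc : b ≠ c
  na : N9 a
  nb : N9 b
  nc : N9 c
  reg : ∀ g, ¬ 3 ∣ orderOf g → c.1 g = a.1 g + b.1 g
  sa : ∀ g, 3 ∣ orderOf g → a.1 g = -c.1 g
  sb : ∀ g, 3 ∣ orderOf g → b.1 g = -c.1 g

/-- a triple of characters that agree on 3-regular elements -/
structure Tr3 (a b c : IrrCharacter G) : Prop where
  ab : a ≠ b
  ac : a ≠ c
  bc : b ≠ c
  rb : ∀ g, ¬ 3 ∣ orderOf g → b.1 g = a.1 g
  rc : ∀ g, ¬ 3 ∣ orderOf g → c.1 g = a.1 g
  sing : ∀ g, 3 ∣ orderOf g → a.1 g + b.1 g + c.1 g = 0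

/-- every character with `9 ∥ deg` lies in a triple -/
def D3S (G : Type*) [Group G] [Fintype G] : Prop := ∀ χ : IrrCharacter G, N9 χ →
  (∃ a b, Tri a b χ) ∨ (∃ a c, Tri a χ c) ∨ ∃ b c, Tr3 χ b c

theorem cc_inj (h : a ≠ b) : cc a ≠ cc b := fun e => h (Subtype.ext (funext fun g => by
  have := congrArg (fun χ : IrrCharacter G => χ.1 g⁻¹) e
  simpa [cc_apply] using this))

theorem N9.cc (h : N9 a) : N9 (cc a) := by simpa [N9, deg_cc] using h
theorem N9.ne (h : N9 a) : a ≠ one1 G := ne_of_deg fun e => by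
  have := h.1
  rw [e, deg_one1] at this; omega
theorem n9 {n : ℕ} (h : deg a = n) (h1 : n % 9 = 0 := by norm_num) (h2 : n % 27 ≠ 0 := by norm_num) :
    N9 a := ⟨by omega, by omega⟩

theorem reg_one : ¬ 3 ∣ orderOf (1 : G) := by simp

theorem Tri.symm (t : Tri a b c) : Tri b a c :=
  ⟨t.ab.symm, t.bc, t.ac, t.nb, t.na, t.nc, fun g h => by rw [t.reg g h, add_comm], t.sb, t.sa⟩

theorem Tri.cc (t : Tri a b c) : Tri (cc a) (cc b) (cc c) :=
  ⟨cc_inj t.ab, cc_inj t.ac, cc_inj t.bc, t.na.cc, t.nb.cc, t.nc.cc,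
    fun g h => by simp only [cc_apply]; exact t.reg _ (by rwa [orderOf_inv]),
    fun g h => by simp only [cc_apply]; exact t.sa _ (by rwa [orderOf_inv]),
    fun g h => by simp only [cc_apply]; exact t.sb _ (by rwa [orderOf_inv])⟩

theorem Tr3.cc (t : Tr3 a b c) : Tr3 (cc a) (cc b) (cc c) :=
  ⟨cc_inj t.ab, cc_inj t.ac, cc_inj t.bc,
    fun g h => by simp only [cc_apply]; exact t.rb _ (by rwa [orderOf_inv]),
    fun g h => by simp only [cc_apply]; exact t.rc _ (by rwa [orderOf_inv]),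
    fun g h => by simp only [cc_apply]; exact t.sing _ (by rwa [orderOf_inv])⟩

theorem Tr3.deg (t : Tr3 a b c) : deg b = deg a ∧ deg c = deg a := by
  have h1 := t.rb 1 reg_one
  have h2 := t.rc 1 reg_one
  rw [deg_eq, deg_eq] at h1 h2
  exact ⟨by exact_mod_cast h1, by exact_mod_cast h2⟩

theorem Tr3.sw (t : Tr3 a b c) : Tr3 a c b :=
  ⟨t.ac, t.ab, t.bc.symm, t.rc, t.rb, fun g h => by linear_combination t.sing g h⟩

theorem Tr3.rot (t : Tr3 a b c) : Tr3 b a c :=
  ⟨t.ab.symm, t.bc, t.ac, fun g h => (t.rb g h).symm, fun g h => (t.rc g h).trans (t.rb g h).symm,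
    fun g h => by linear_combination t.sing g h⟩

theorem inner_ne (h : a ≠ b) : classInner a.1 b.1 = 0 :=
  irr_classInner_of_ne a.2 b.2 fun e => h (Subtype.ext e)

/-- the top of a triple is not in a triple of the second kind -/
theorem Tri.not_c (t : Tri a b c) (s : Tr3 c d e) : False := by
  have h : c.1 + a.1 + b.1 = d.1 + e.1 := funext fun g => by
    simp only [Pi.add_apply]
    by_cases h : 3 ∣ orderOf g
    · linear_combination t.sa g h + t.sb g h - s.sing g h
    · linear_combination -t.reg g h - s.rb g h - s.rc g h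
  have := congrArg (classInner · c.1) h
  simp only [classInner_add_left, irr_classInner_self c.2, inner_ne t.ac, inner_ne t.bc,
    inner_ne s.ab.symm, inner_ne s.ac.symm] at this
  simp at this

/-- a bottom of a triple is not in a triple of the second kind -/
theorem Tri.not_b (t : Tri a b c) (s : Tr3 b d e) : False := by
  have h : b.1 + c.1 = d.1 + e.1 + a.1 := funext fun g => by
    simp only [Pi.add_apply]
    by_cases h : 3 ∣ orderOf g
    · linear_combination 2 * t.sb g h - t.sa g h - s.sing g h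
    · linear_combination t.reg g h - s.rb g h - s.rc g h
  have := congrArg (classInner · b.1) h
  simp only [classInner_add_left, irr_classInner_self b.2, inner_ne t.ab, inner_ne t.bc.symm,
    inner_ne s.ab.symm, inner_ne s.ac.symm] at this
  simp at this

/-- `tr` as a function of the degree -/
def trD (d : ℕ) : ℤ :=
  if d % 23 = 1 then 2 else if d % 23 = 22 then -2 else if d % 23 = 12 then 1
  else if d % 23 = 11 then -1 else 0
/-- `vl` as a function of the degree -/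
def vlD (d : ℕ) : ℤ := if d % 11 = 1 then 1 else if d % 11 = 10 then -1 else 0
/-- the degrees -/
def DG : List ℕ := TY.map (·.1)

theorem ty_fun : ∀ a ∈ TY, a.2.1 = trD a.1 ∧ a.2.2 = vlD a.1 := by decide +kernel

/-- the possible triples -/
def TR : List (ℕ × ℕ × ℕ) := [(45, 990, 1035), (252, 5544, 5796), (495, 495, 990),
  (495, 2277, 2772), (990, 45, 1035), (990, 4554, 5544), (1035, 2277, 3312), (2277, 495, 2772),
  (2277, 1035, 3312), (2277, 2277, 4554), (2277, 9108, 11385), (2772, 2772, 5544),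
  (2772, 6336, 9108), (3312, 5796, 9108), (4554, 990, 5544), (4554, 4554, 9108),
  (5544, 252, 5796), (5796, 3312, 9108), (6336, 2772, 9108), (6336, 6336, 12672),
  (9108, 2277, 11385)]

set_option synthInstance.maxSize 2000 in
theorem tr_chk : ∀ a ∈ DG, a % 9 = 0 → a % 27 ≠ 0 → ∀ b ∈ DG, b % 9 = 0 → b % 27 ≠ 0 →
    a + b ∈ DG → (a + b) % 27 ≠ 0 → trD (a + b) = trD a + trD b → vlD (a + b) = vlD a + vlD b →
    (a, b, a + b) ∈ TR := by decide +kernel

theorem split {α : Type*} {n : ℕ} {c : Fin n → α} (hc : Function.Injective c) {l : List α}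
    (hl : l.Nodup) (hm : ∀ a ∈ l, ∃ j, c j = a) : ∃ r : List α, r.length + l.length = n ∧
    (l ++ r).Nodup ∧ (∀ a ∈ l ++ r, ∃ j, c j = a) ∧
    ∀ f : α → ℤ, ∑ j, f (c j) = ((l ++ r).map f).sum := by
  obtain ⟨m, h1, h2⟩ := List.subperm_of_subset hl (l₂ := List.ofFn c) fun a ha =>
    List.mem_ofFn.2 (hm a ha)
  obtain ⟨r, h3⟩ := h2.exists_perm_append
  have h4 : (List.ofFn c).Perm (l ++ r) := h3.trans (h1.append_right r)
  refine ⟨r, ?_, h4.nodup (List.nodup_ofFn.2 hc), fun a ha => List.mem_ofFn.1 (h4.symm.subset ha),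
    fun f => ?_⟩
  · have := h4.length_eq
    simp only [List.length_ofFn, List.length_append] at this
    omega
  · rw [← (h4.map f).sum_eq, List.map_ofFn, List.sum_ofFn]; rfl

namespace Loc
variable [IsSimpleGroup G] (L : Loc x y)
include L

theorem dg (h : a ≠ one1 G) : deg a ∈ DG := List.mem_map.2 ⟨_, L.ty h, rfl⟩
theorem trd (h : a ≠ one1 G) : tr x a = trD (deg a) := (ty_fun _ (L.ty h)).1
theorem vld (h : a ≠ one1 G) : vl y a = vlD (deg a) := (ty_fun _ (L.ty h)).2

theorem tri (t : Tri a b c) : (deg a, deg b, deg c) ∈ TR := by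
  have h0 := t.reg 1 reg_one
  simp only [deg_eq] at h0
  have h1 : deg c = deg a + deg b := by exact_mod_cast h0
  have ox : ¬ 3 ∣ orderOf x := by rw [L.hx.ord]; decide
  have h2 : tr x c = tr x a + tr x b := by
    refine Int.cast_injective (α := ℂ) ?_
    push_cast
    rw [← L.tr_x, ← L.tr_x, ← L.tr_x, t.reg x ox, t.reg x⁻¹ (by rwa [orderOf_inv])]; ring
  have h3 : vl y c = vl y a + vl y b := by
    refine Int.cast_injective (α := ℂ) ?_
    push_cast
    rw [← L.vl_y, ← L.vl_y, ← L.vl_y, t.reg y (by rw [L.hy.ord]; decide)]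
  rw [L.trd t.na.ne, L.trd t.nb.ne, L.trd t.nc.ne, h1] at h2
  rw [L.vld t.na.ne, L.vld t.nb.ne, L.vld t.nc.ne, h1] at h3
  have := t.na.1; have := t.na.2; have := t.nb.1; have := t.nb.2; have := t.nc.2
  rw [h1]
  exact tr_chk _ (L.dg t.na.ne) (by omega) (by omega) _ (L.dg t.nb.ne) (by omega) (by omega)
    (h1 ▸ L.dg t.nc.ne) (by omega) h2 h3

/-- the principal 11-block, starting from known members -/
theorem b11 (F : Full L.hy 10) {l : List (IrrCharacter G)} (hl : l.Nodup)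
    (hm : ∀ χ ∈ l, deg χ ≠ 1 ∧ vlD (deg χ) ≠ 0) : ∃ r : List (IrrCharacter G),
    r.length + l.length = 10 ∧ (l ++ r).Nodup ∧
    (∀ χ ∈ l ++ r, χ ≠ one1 G ∧ deg χ ∈ DG ∧ vlD (deg χ) ≠ 0) ∧
    (∀ f : IrrCharacter G → ℤ, ∑ j, F.s j * f (F.c j) =
      ((l ++ r).map fun χ => vlD (deg χ) * f χ).sum) ∧
    1 + ((l ++ r).map fun χ => vlD (deg χ) * deg χ).sum = 0 ∧
    2 + ((l ++ r).map fun χ => vlD (deg χ) * trD (deg χ)).sum = 0 := by
  have s : ∀ j, F.s j = vlD (deg (F.c j)) := fun j => by rw [← L.vld (F.ne_one j), L.vl_c]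
  obtain ⟨r, h1, h2, h3, h4⟩ := split F.inj hl fun χ hχ => by
    have n1 : χ ≠ one1 G := ne_of_deg (by rw [deg_one1]; exact (hm χ hχ).1)
    exact L.mem_F F n1 (by rw [L.vld n1]; exact (hm χ hχ).2)
  have h5 : ∀ f : IrrCharacter G → ℤ, ∑ j, F.s j * f (F.c j) =
      ((l ++ r).map fun χ => vlD (deg χ) * f χ).sum := fun f => by
    rw [← h4]; simp only [s]
  refine ⟨r, h1, h2, fun χ hχ => ?_, h5, h5 (fun χ => deg χ) ▸ F.sum_deg, ?_⟩
  · obtain ⟨j, rfl⟩ := h3 χ hχ
    refine ⟨F.ne_one j, L.dg (F.ne_one j), ?_⟩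
    rw [← s]; rcases F.s_eq j with e | e <;> omega
  · rw [← h5 fun χ => trD (deg χ), ← L.full_x F (by decide)]
    simp only [L.trd (F.ne_one _)]

/-- the principal 23-block, starting from known members -/
theorem b23 {l : List (IrrCharacter G)} (hl : l.Nodup)
    (hm : ∀ χ ∈ l, deg χ ≠ 1 ∧ (trD (deg χ) = 2 ∨ trD (deg χ) = -2)) :
    ∃ (r : List (IrrCharacter G)) (d : ℕ), r.length + l.length = 10 ∧ d ∈ DG ∧
    (∀ χ ∈ l ++ r, deg χ ∈ DG) ∧ trD d % 2 = 1 ∧
    2 + ((l ++ r).map fun χ => trD (deg χ) * deg χ).sum + 2 * trD d * d = 0 := by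
  obtain ⟨T, t⟩ := L.gen
  have s : ∀ j, 2 * T.s j = trD (deg (T.c j)) := fun j => by rw [← L.trd (T.ne_one j), L.tr_c]
  have s0 : T.s0 = trD (deg T.E) := by rw [← L.trd (T.X1 _ T.E_mem), L.tr_X t T.E_mem]
  obtain ⟨r, h1, -, h3, h4⟩ := split T.inj hl fun χ hχ => by
    have n1 : χ ≠ one1 G := ne_of_deg (by rw [deg_one1]; exact (hm χ hχ).1)
    exact L.mem_c t n1 (by rw [L.trd n1]; exact (hm χ hχ).2)
  refine ⟨r, deg T.E, h1, L.dg (T.X1 _ T.E_mem), fun χ hχ => ?_, ?_, ?_⟩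
  · obtain ⟨j, rfl⟩ := h3 χ hχ
    exact L.dg (T.ne_one j)
  · rw [← s0]; rcases T.s0_eq with e | e <;> omega
  · have := T.sum_deg
    rw [← h4, ← s0]
    simp only [← s, mul_assoc, ← Finset.mul_sum]
    linear_combination 2 * this

end Loc

end MQ
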