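import Cfsg.Agent.MQ.D3
import Cfsg.Agent.MQ.E3a

/-! Triples of characters of `3`-defect one. -/

set_option autoImplicit false

namespace MQ
open Cfsg H8

theorem d3s {G : Type*} [Group G] [Fintype G] (hN : Nat.card G = 244823040) : D3S G := by
  intro χ hχ
  obtain ⟨a, b, h1, h2, h3, h4, h5, e, f, he, hf, h | h⟩ :=
    d3 (by rw [hN]; norm_num) (by rw [hN]; norm_num) χ hχ.1 hχ.2
  · obtain ⟨hr, hs⟩ := h
    rcases he with rfl | rfl <;> rcases hf with rfl | rfl <;> push_cast at hr hs
    · exact Or.inl ⟨a, b, h1, h2, h3, h4, h5, hχ, fun g hg => by linear_combination hr g hg,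
        fun g hg => by linear_combination (hs g hg).1, fun g hg => by linear_combination (hs g hg).2⟩
    · exact Or.inr (Or.inl ⟨b, a, h3, h1.symm, h2.symm, h5, hχ, h4,
        fun g hg => by linear_combination -hr g hg,
        fun g hg => by linear_combination (hs g hg).1 - (hs g hg).2,
        fun g hg => by linear_combination (hs g hg).1⟩)
    · exact Or.inr (Or.inl ⟨a, b, h2, h1, h3.symm, h4, hχ, h5,
        fun g hg => by linear_combination -hr g hg,
        fun g hg => by linear_combination (hs g hg).2 - (hs g hg).1,
        fun g hg => by linear_combination (hs g hg).2⟩)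
    · have := hr 1 reg_one
      simp only [deg_eq] at this
      have h6 : (deg χ : ℤ) = -1 * deg a + -1 * deg b := by exact_mod_cast this
      have := deg_pos χ
      omega
  · exact Or.inr (Or.inr ⟨a, b, h2.symm, h3.symm, h1, fun g hg => (h.1 g hg).1,
      fun g hg => (h.1 g hg).2, h.2⟩)

end MQ
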