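import Cfsg.Agent.MQ.E3e

/-! The case `e₇ = 3` does not occur without a character of degree 23. -/

set_option autoImplicit false
set_option linter.unusedSectionVars false

namespace MQ
open Cfsg H8 H2 Subgroup
open scoped ComplexConjugate

variable {G : Type*} [Group G] [Fintype G] {x y w r t : G}

namespace Loc
variable [IsSimpleGroup G] (L : Loc x y) (n23 : ∀ χ : IrrCharacter G, deg χ ≠ 23)
include L n23

theorem fin (A : Tt y r t) {h : DefOne 5 r} (F : Full h 4) {k : DefOne 7 w}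
    (e3 : Nat.card k.H = 3) (T : Gen k 2) (B : Full L.hy 10) {χ S κ α p q : IrrCharacter G}
    (t1 : Tri χ T.E S) (dχ : deg χ = 45) (dS : deg S = 1035) (t2 : Tri α (F.c 0) (F.c 3))
    (dα : deg α = 252) (dκ : deg κ = 3312) (n1 : χ ≠ cc χ) (n2 : S ≠ cc S) (n3 : T.c 0 ≠ S)
    (n4 : T.c 0 ≠ cc S) (n5 : p ≠ q) {u : ℕ × ℤ × ℕ}
    (hu : u ∈ [((276 : ℕ), (1 : ℤ), (736 : ℕ)), (230, -1, 230)]) (dp : deg p = u.1)
    (dq : deg q = u.2.2) (tr : ∀ f : IrrCharacter G → ℤ, ∑ j, B.s j * f (B.c j) =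
      f χ + f (cc χ) + f (T.c 0) + f S + f (cc S) + f κ - f α - f (F.c 3) + u.2.1 * f p - f q) :
    False := by
  obtain ⟨⟨s0, d0⟩, ⟨s1, d1⟩, ⟨s2, s3⟩, -⟩ := L.b5 n23 F
  obtain ⟨d2, d3⟩ := L.b5c n23 F
  obtain ⟨⟨r0, e0⟩, ⟨r1, e1⟩, ⟨rE, eE⟩, -⟩ := L.b73 n23 e3 T F
  have o3 : ¬ 3 ∣ orderOf t := by rw [A.ot]; decide
  have ti : t⁻¹ = t := inv_eq_of_mul_eq_one_right (by rw [← sq, ← A.ot, pow_orderOf_eq_one])
  have vc : ∀ a : IrrCharacter G, vl t (cc a) = vl t a := fun a => by rw [vl, vl, cc_apply, ti]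
  have hu' : u.1 ≠ 1 ∧ u.2.2 ≠ 1 ∧ vlD u.1 = u.2.1 ∧ vlD u.2.2 = -1 := by
    clear dp dq tr; revert u; decide
  have tv : ∀ (a : IrrCharacter G) {d : ℕ}, deg a = d → d ≠ 1 → a.1 t = vl t a ∧
      vl t a ∈ cv d (vlD d) (Nat.card (Cx t)) := fun a d e n =>
    e ▸ L.tv A (ne_of_deg (by rw [deg_one1, e]; exact n))
  obtain ⟨a1, b1⟩ := tv χ dχ (by decide)
  obtain ⟨a2, b2⟩ := tv T.E eE (by decide)
  obtain ⟨a3, b3⟩ := tv S dS (by decide)
  obtain ⟨a4, b4⟩ := tv (T.c 0) e0 (by decide)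
  obtain ⟨a5, b5⟩ := tv (F.c 1) d1 (by decide)
  obtain ⟨a6, b6⟩ := tv α dα (by decide)
  obtain ⟨a7, b7⟩ := tv (F.c 2) d2 (by decide)
  obtain ⟨a8, b8⟩ := tv (F.c 3) d3 (by decide)
  obtain ⟨a9, b9⟩ := tv κ dκ (by decide)
  obtain ⟨a10, b10⟩ := tv p dp hu'.1
  obtain ⟨a11, b11⟩ := tv q dq hu'.2.1
  obtain ⟨a12, -⟩ := tv (F.c 0) d0 (by decide)
  obtain ⟨a13, -⟩ := tv (cc χ) ((deg_cc _).trans dχ) (by decide)
  obtain ⟨a14, -⟩ := tv (cc S) ((deg_cc _).trans dS) (by decide)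
  have c1 : vl t S = vl t χ + vl t T.E := by
    have := t1.reg t o3
    rw [a1, a2, a3] at this; exact_mod_cast this
  have c2 : vl t (F.c 3) = vl t α + vl t (F.c 0) := by
    have := t2.reg t o3
    rw [a6, a8, a12] at this; exact_mod_cast this
  obtain ⟨c3, c4⟩ := L.q7 A T (T.two e3 rfl (by decide)) r0 e0 r1 (e1 ▸ d1) rE eE
  have c5 : 1 - vl t (F.c 0) - vl t (F.c 1) + vl t (F.c 2) + vl t (F.c 3) = 0 := by
    have := F.lin t (by rw [A.ot]; decide)
    rw [Fin.sum_univ_four, s0, s1, s2, s3, a12, a5, a7, a8] at this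
    refine Int.cast_injective (α := ℂ) ?_
    push_cast at this ⊢
    linear_combination this
  have tV : t ∈ h.V := h.mem_V'.2 ⟨A.cm, by rw [A.ot]; decide⟩
  have m5 : ∀ j, (F.c j).1 t = vl t (F.c j) → (5 : ℤ) ∣ vl t (F.c j) - deg (F.c j) := fun j e => by
    obtain ⟨β, h1, h2⟩ := F.res j
    exact L23.mod_of_restrict _ h1 h2 tV e
  have c6 := m5 2 a7
  have c7 := m5 3 a8
  have c8 := L.lin11 A B
  have c9 := L.q11 A B
  rw [tr fun a => vl t a] at c8
  rw [tr fun a => (244823040 / deg a : ℕ) * (vl t a * vl t a)] at c9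
  have sq := sq_list_le (l := [one1 G, χ, cc χ, T.c 0, S, cc S, κ, α, F.c 3, p, q, F.c 1, F.c 0,
    F.c 2]) (nd (by
      simp only [List.mem_cons, List.not_mem_nil, or_false] at hu
      rcases hu with rfl | rfl <;>
        simp [deg_one1, deg_cc, dχ, dS, e0, dκ, dα, d0, d1, d2, d3, dp, dq, n1, n2, n3, n4, n5])) t
  simp only [List.map_cons, List.map_nil, List.sum_cons, List.sum_nil, a1, a3, a4, a5, a6, a7, a8,
    a9, a10, a11, a12, a13, a14, Complex.normSq_intCast, Pi.one_apply, map_one, vc] at sq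
  have sq' : 1 + (vl t χ * vl t χ + (vl t χ * vl t χ + (vl t (T.c 0) * vl t (T.c 0) +
      (vl t S * vl t S + (vl t S * vl t S + (vl t κ * vl t κ + (vl t α * vl t α +
      (vl t (F.c 3) * vl t (F.c 3) + (vl t p * vl t p + (vl t q * vl t q +
      (vl t (F.c 1) * vl t (F.c 1) + (vl t (F.c 0) * vl t (F.c 0) +
      (vl t (F.c 2) * vl t (F.c 2) + 0))))))))))))) ≤ (Nat.card (Cx t) : ℤ) := by
    exact_mod_cast sq
  simp only [vc, deg_cc, dχ, dS, e0, dκ, dα, d3, dp, dq] at c8 c9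
  rw [e1] at c3 c4
  rw [d2] at c6
  rw [d3] at c7
  rw [hu'.2.2.1] at b10
  rw [hu'.2.2.2] at b11
  obtain ⟨v1, v2, v3, v4, v5, -, -, -, v6, v7, v8, -⟩ := vt
  rw [v1] at b1; rw [v6] at b2; rw [v2] at b3 b4; rw [v7] at b5; rw [v4] at b6; rw [v8] at b7
  rw [v5] at b8; rw [v3] at b9
  have hc := L.c10 A
  generalize Nat.card (Cx t) = c at *
  generalize vl t χ = z1 at *
  generalize vl t T.E = z2 at *
  generalize vl t S = z3 at *
  generalize vl t (T.c 0) = z4 at *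
  generalize vl t (F.c 1) = z5 at *
  generalize vl t α = z6 at *
  generalize vl t (F.c 2) = z7 at *
  generalize vl t (F.c 3) = z8 at *
  generalize vl t κ = z9 at *
  generalize vl t p = z10 at *
  generalize vl t q = z11 at *
  generalize vl t (F.c 0) = z12 at *
  obtain rfl : z12 = z8 - z6 := by omega
  obtain rfl : z7 = z4 + z2 - 2 - z6 := by omega
  subst c1 c3
  refine chkT c hc z1 b1 z2 b2 b3 z4 b4 c4 b5 z6 b6 (by omega) b7 z8 b8 (by omega) z9 b9 u hu z10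
    b10 z11 (List.mem_singleton.2 (by linear_combination -c8)) (by linarith) b11 ?_
  norm_num at c9 ⊢
  linear_combination c9

theorem not_e73 (D : D3S G) (k : DefOne 7 w) : Nat.card k.H ≠ 3 := fun e3 => by
  obtain ⟨T⟩ := exists_gen k (n := 2) e3
  have t7 := T.two e3 rfl (by decide)
  obtain ⟨r, t, A⟩ := L.exists_tt
  have h : DefOne 5 r := ⟨A.or, by rw [L.hN]; decide⟩
  obtain ⟨F⟩ := exists_full h (n := 4) rfl (L.e5 h)
  obtain ⟨B⟩ := L.full
  obtain ⟨-, d3⟩ := L.b5c n23 F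
  obtain ⟨⟨r0, e0⟩, -, ⟨-, eE⟩, hv⟩ := L.b73 n23 e3 T F
  obtain ⟨g, g3, g7, gE, g0⟩ := ex_g0 T t7 (by
    simp only [List.mem_cons, List.not_mem_nil, or_false] at hv; omega)
  obtain ⟨χ, S, t1, dχ, dS⟩ := L.tri45 n23 D eE k.ord t7.ne g3 g7 gE
  have g3' : 3 ∣ orderOf g⁻¹ := by rwa [orderOf_inv]
  have nr : ∀ a : IrrCharacter G, a.1 g⁻¹ = a.1 g → a ≠ χ ∧ a ≠ cc χ ∧ a ≠ S ∧ a ≠ cc S :=
    fun a e => by
    have k1 : χ.1 g⁻¹ ≠ χ.1 g := by
      rwa [t1.sa _ g3, t1.sa _ g3', ← t1.sb _ g3, ← t1.sb _ g3']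
    have k2 : S.1 g⁻¹ ≠ S.1 g := fun c => gE (by rw [t1.sb _ g3, t1.sb _ g3', c])
    refine ⟨fun c => k1 (c ▸ e), fun c => k1 ?_, fun c => k2 (c ▸ e), fun c => k2 ?_⟩ <;>
      rw [c, cc_apply, cc_apply, inv_inv] at e <;> exact e.symm
  have n1 : χ ≠ cc χ := fun c => (nr χ (by rw [← cc_apply, ← c])).1 rfl
  have n2 : S ≠ cc S := fun c => (nr S (by rw [← cc_apply, ← c])).2.2.1 rfl
  obtain ⟨-, -, n3, n4⟩ := nr (T.c 0) (by rw [g0, val_inv g0])
  have v := vt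
  have one : ∀ {l : List (IrrCharacter G)} (s : ℤ), s ∈ [(-782 : ℤ), -5336, -10880, -14147] →
      l.Nodup → (∀ χ ∈ l, deg χ ≠ 1 ∧ vlD (deg χ) ≠ 0) → l.length = 9 →
      1 + (l.map fun χ => vlD (deg χ) * deg χ).sum = s → False := fun {l} s hs h1 h2 h3 h4 => by
    obtain ⟨m, a1, -, a3, -, a5, -⟩ := L.b11 B h1 h2
    obtain ⟨p, rfl⟩ := List.length_eq_one_iff.1 (show m.length = 1 by omega)
    refine c11a _ (a3 p (by simp)).2.1 s hs ?_
    rw [List.map_append, List.sum_append, ← add_assoc, h4] at a5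
    simpa using a5
  have P := L.t252 n23 D F
  rcases D _ (n9 e0) with ⟨a, b, s⟩ | ⟨a, κ, s⟩ | ⟨b, c, s⟩
  · obtain ⟨a, b, s, da⟩ : ∃ a b, Tri a b (T.c 0) ∧ deg a = 45 := by
      rcases (tr_990 _ (L.tri s)).2.2.1 e0 with e | e
      exacts [⟨a, b, s, e⟩, ⟨b, a, s.symm, e⟩]
    obtain ⟨n5, n6, -⟩ := nr a (by rw [s.sa _ g3, s.sa _ g3', g0, val_inv g0])
    rcases P with ⟨α, ξ, -, dα, -⟩ | ⟨-, b', c', s'⟩
    · obtain ⟨m, a1, -, a3, -, a5, a6⟩ := L.b11 B (l := [a, χ, cc χ, T.c 0, S, cc S, α, F.c 3])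
        (nd (by simp [*, deg_cc])) (by simp [*, deg_cc])
      obtain ⟨p, q, rfl⟩ := List.length_eq_two.1 (show m.length = 2 by simpa using a1)
      simp [da, dχ, e0, dS, dα, d3, deg_cc, v] at a5 a6
      exact (c11b _ (a3 p (by simp)).2.1 _ (a3 q (by simp)).2.1).1 (by linear_combination a5)
        (by linear_combination a6)
    · have := s'.deg.1.trans d3
      have := s'.deg.2.trans d3
      exact one (l := [a, χ, cc χ, T.c 0, S, cc S, F.c 3, b', c']) (-14147) (by simp)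
        (nd (by simp [*, deg_cc, s'.ab, s'.ac, s'.bc])) (by simp [*, deg_cc]) rfl
        (by simp [*, deg_cc])
  · have dκ : deg κ = 3312 := (tr_990 _ (L.tri s)).2.2.2 e0
    rcases P with ⟨α, ξ, t2, dα, dξ⟩ | ⟨-, b', c', s'⟩
    · by_cases e : ξ = F.c 3
      · subst e
        obtain ⟨m, a1, a2, a3, a4, a5, -⟩ := L.b11 B
          (l := [χ, cc χ, T.c 0, S, cc S, κ, α, F.c 3]) (nd (by simp [*, deg_cc]))
          (by simp [*, deg_cc])
        obtain ⟨p, q, rfl⟩ := List.length_eq_two.1 (show m.length = 2 by simpa using a1)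
        have n5 : p ≠ q := by simpa using (List.nodup_append.1 a2).2.1
        have sq := sq_list_le (l := [p, q]) (by simpa using n5) 1
        simp only [List.map_cons, List.map_nil, List.sum_cons, List.sum_nil, deg_eq,
          Complex.normSq_natCast, add_zero, card_Cx_one, L.hN] at sq
        simp [dχ, e0, dS, dα, d3, dκ, deg_cc, v] at a5
        rcases (c11b _ (a3 p (by simp)).2.1 _ (a3 q (by simp)).2.1).2 (by linear_combination a5)
          (n23 p) (n23 q) (by exact_mod_cast sq) with ⟨dp, dq⟩ | ⟨dp, dq⟩ | ⟨dp, dq⟩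
        · exact L.fin n23 A F e3 T B t1 dχ dS t2 dα dκ n1 n2 n3 n4 n5 (u := (230, -1, 230))
            (by simp) dp dq fun f => by rw [a4]; simp [dχ, e0, dS, dα, d3, dκ, deg_cc, v, dp, dq]; ring
        · exact L.fin n23 A F e3 T B t1 dχ dS t2 dα dκ n1 n2 n3 n4 n5 (u := (276, 1, 736))
            (by simp) dp dq fun f => by rw [a4]; simp [dχ, e0, dS, dα, d3, dκ, deg_cc, v, dp, dq]; ring
        · exact L.fin n23 A F e3 T B t1 dχ dS t2 dα dκ n1 n2 n3 n4 n5.symm (u := (276, 1, 736))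
            (by simp) dq dp fun f => by rw [a4]; simp [dχ, e0, dS, dα, d3, dκ, deg_cc, v, dp, dq]; ring
      · exact one (l := [χ, cc χ, T.c 0, S, cc S, κ, α, ξ, F.c 3]) (-5336) (by simp)
          (nd (by simp [*, deg_cc])) (by simp [*, deg_cc]) rfl (by simp [*, deg_cc])
    · have := s'.deg.1.trans d3
      have := s'.deg.2.trans d3
      exact one (l := [χ, cc χ, T.c 0, S, cc S, κ, F.c 3, b', c']) (-10880) (by simp)
        (nd (by simp [*, deg_cc, s'.ab, s'.ac, s'.bc])) (by simp [*, deg_cc]) rfl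
        (by simp [*, deg_cc])
  · have db := s.deg.1.trans e0
    have dc := s.deg.2.trans e0
    have m1 : S ≠ b := fun e => t1.not_c (e ▸ s.rot)
    have m2 : S ≠ c := fun e => t1.not_c (e ▸ s.sw.rot)
    have m3 : cc S ≠ b := fun e => t1.cc.not_c (e ▸ s.rot)
    have m4 : cc S ≠ c := fun e => t1.cc.not_c (e ▸ s.sw.rot)
    rcases P with ⟨α, ξ, -, dα, -⟩ | ⟨-, b', c', s'⟩
    · exact one (l := [χ, cc χ, T.c 0, S, cc S, b, c, α, F.c 3]) (-782) (by simp)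
        (nd (by simp [*, deg_cc, s.ab, s.ac, s.bc])) (by simp [*, deg_cc]) rfl
        (by simp [*, deg_cc])
    · have := s'.deg.1.trans d3
      have := s'.deg.2.trans d3
      obtain ⟨m, a1, -, -, -, a5, -⟩ := L.b11 B
        (l := [χ, cc χ, T.c 0, S, cc S, b, c, F.c 3, b', c'])
        (nd (by simp [*, deg_cc, s.ab, s.ac, s.bc, s'.ab, s'.ac, s'.bc])) (by simp [*, deg_cc])
      obtain rfl := List.length_eq_zero_iff.1 (show m.length = 0 by simpa using a1)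
      simp [*, deg_cc] at a5

end Loc

end MQ
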