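import Cfsg.Agent.MQ.E3a

/-! The triples of the characters of degrees 5544 and 5796 in the principal 5-block. -/

set_option autoImplicit false
set_option linter.unusedSectionVars false

namespace MQ
open Cfsg H8 H2 Subgroup
open scoped ComplexConjugate

variable {G : Type*} [Group G] [Fintype G] {x y r : G} {a b c d : IrrCharacter G}

theorem mu_four {p : ℕ} [Fact p.Prime] (k : DefOne p r) {e z : ℂ}
    (h : ∀ v ∈ k.V, e * a.1 (r * v) + b.1 (r * v) + c.1 (r * v) + d.1 (r * v) = z) :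
    e * mu k a + mu k b + mu k c + mu k d = z := by
  classical
  have n0 : (Nat.card k.V : ℂ) ≠ 0 := Nat.cast_ne_zero.2 Nat.card_pos.ne'
  simp only [mu]
  field_simp
  rw [Finset.mul_sum, ← Finset.sum_add_distrib, ← Finset.sum_add_distrib,
    ← Finset.sum_add_distrib, Finset.sum_congr rfl fun (v : k.V) _ => h v v.2, Finset.sum_const,
    Finset.card_univ, nsmul_eq_mul, Nat.card_eq_fintype_card]

theorem tr_5544 : ∀ t ∈ TR, (t.2.2 = 5544 → t.1 = 990 ∧ t.2.1 = 4554 ∨ t.1 = 4554 ∧ t.2.1 = 990 ∨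
    t.1 = 2772 ∧ t.2.1 = 2772) ∧ (t.2.1 = 5544 → t.1 = 252 ∧ t.2.2 = 5796) ∧
    (t.2.2 = 5796 → t.1 = 252 ∧ t.2.1 = 5544 ∨ t.1 = 5544 ∧ t.2.1 = 252) ∧
    (t.2.1 = 5796 → t.1 = 3312 ∧ t.2.2 = 9108) := by decide +kernel

namespace Loc
variable [IsSimpleGroup G] (L : Loc x y) (n23 : ∀ χ : IrrCharacter G, deg χ ≠ 23)
include L

/-- two characters with odd `tr` agree on 23-regular elements -/
theorem odd_reg (ha : tr x a % 2 = 1) (hb : tr x b % 2 = 1) {g : G} (hg : ¬ 23 ∣ orderOf g) :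
    a.1 g = b.1 g := by
  obtain ⟨T, -⟩ := L.gen
  rw [T.reg _ (L.odd_X ha) g hg, T.reg _ (L.odd_X hb) g hg]

include n23

theorem mu5 {h : DefOne 5 r} (F : Full h 4) (h1 : a ≠ one1 G) (h0 : a ≠ F.c 0)
    (h2 : deg a ≠ 2024) (h3 : deg a ≠ 1771) (h4 : deg a ≠ 5796) : mu h a = 0 := by
  obtain ⟨-, ⟨-, d1⟩, -⟩ := L.b5 n23 F
  obtain ⟨d2, d3⟩ := L.b5c n23 F
  refine Full.mu_other F h1 fun j => ?_
  fin_cases j
  · exact h0.symm
  · exact ne_of_deg (d1 ▸ h2.symm)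
  · exact ne_of_deg (d2 ▸ h3.symm)
  · exact ne_of_deg (d3 ▸ h4.symm)

theorem not_4554 {h : DefOne 5 r} (F : Full h 4) (t : Tri a b (F.c 0)) (da : deg a = 990)
    (db : deg b = 4554) : False := by
  obtain ⟨⟨s0, d0⟩, -⟩ := L.b5 n23 F
  have := mu_const h (χ := b) (a := -1) fun v hv => by
    have e0 := F.val_mul 0 hv
    have e1 := irr_eq_zero_of_dvd_deg h.not_sq a (by rw [da]; decide) (dvd_ord h hv)
    rw [s0] at e0
    by_cases o : 3 ∣ orderOf (r * v)
    · have := t.sa _ o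
      rw [e0, e1] at this; simp at this
    · have := t.reg _ o
      rw [e0, e1] at this; simpa using this.symm
  rw [L.mu5 n23 F t.nb.ne t.bc (by omega) (by omega) (by omega)] at this
  simp at this

/-- the triples of 5544 and 5796 -/
theorem t252 (D : D3S G) {h : DefOne 5 r} (F : Full h 4) :
    (∃ α ξ, Tri α (F.c 0) ξ ∧ deg α = 252 ∧ deg ξ = 5796) ∨
      (∃ b c, Tr3 (F.c 0) b c) ∧ ∃ b c, Tr3 (F.c 3) b c := by
  obtain ⟨⟨s0, d0⟩, -, ⟨-, s3⟩, -⟩ := L.b5 n23 F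
  obtain ⟨-, d3⟩ := L.b5c n23 F
  have v0 : ∀ v ∈ h.V, (F.c 0).1 (r * v) = -1 := fun v hv => by rw [F.val_mul 0 hv, s0]; simp
  have v3 : ∀ v ∈ h.V, (F.c 3).1 (r * v) = 1 := fun v hv => by rw [F.val_mul 3 hv, s3]; simp
  rcases D _ (n9 d0) with ⟨a, b, t⟩ | ⟨a, c, t⟩ | ⟨b, c, t⟩
  · exfalso
    rcases (tr_5544 _ (L.tri t)).1 d0 with ⟨e1, e2⟩ | ⟨e1, e2⟩ | ⟨e1, e2⟩
    · exact L.not_4554 n23 F t e1 e2
    · exact L.not_4554 n23 F t.symm e2 e1
    · dsimp only at e1 e2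
      have e3 := L.odd_reg (a := a) (b := b) (by rw [L.trd t.na.ne, e1]; decide)
        (by rw [L.trd t.nb.ne, e2]; decide) (g := r) (by rw [h.ord]; decide)
      have e4 := t.reg r (by rw [h.ord]; decide)
      obtain ⟨m, -, hm, -⟩ := exists_int_val h (L.e5 h) b
      rw [e3, hm, F.val_self, s0, ← Int.cast_add, Int.cast_inj] at e4
      omega
  · exact Or.inl ⟨a, c, t, (tr_5544 _ (L.tri t)).2.1 d0⟩
  have nb : b ≠ one1 G := ne_of_deg (by rw [t.deg.1, d0, deg_one1]; omega)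
  have nc : c ≠ one1 G := ne_of_deg (by rw [t.deg.2, d0, deg_one1]; omega)
  have mb := L.mu5 n23 F nb t.ab.symm (by rw [t.deg.1]; omega) (by rw [t.deg.1]; omega)
    (by rw [t.deg.1]; omega)
  have mc := L.mu5 n23 F nc t.ac.symm (by rw [t.deg.2]; omega) (by rw [t.deg.2]; omega)
    (by rw [t.deg.2]; omega)
  have key : ∀ a' b', Tri a' b' (F.c 3) → deg a' = 252 → deg b' = 5544 → False :=
    fun a' b' s e1 e2 => by
    by_cases e3 : b' = F.c 0
    · exact s.not_b (e3 ▸ t)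
    have := mu_four h (a := a') (b := b') (c := b) (d := c) (e := 1) (z := -1) fun v hv => by
      by_cases o : 3 ∣ orderOf (r * v)
      · linear_combination s.sa _ o + s.sb _ o + t.sing _ o - v0 v hv - 2 * v3 v hv
      · linear_combination -s.reg _ o + t.rb _ o + t.rc _ o + 2 * v0 v hv + v3 v hv
    rw [mb, mc, L.mu5 n23 F s.na.ne (ne_of_deg (by omega)) (by omega) (by omega) (by omega),
      L.mu5 n23 F s.nb.ne e3 (by omega) (by omega) (by omega)] at this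
    simp at this
  rcases D _ (n9 d3) with ⟨a', b', s⟩ | ⟨a', c', s⟩ | s
  · rcases (tr_5544 _ (L.tri s)).2.2.1 d3 with ⟨e1, e2⟩ | ⟨e1, e2⟩
    · exact (key _ _ s e1 e2).elim
    · exact (key _ _ s.symm e2 e1).elim
  · exfalso
    obtain ⟨e1, e2⟩ := (tr_5544 _ (L.tri s)).2.2.2 d3
    dsimp only at e1 e2
    have := mu_four h (a := a') (b := c') (c := b) (d := c) (e := -1) (z := -1) fun v hv => by
      by_cases o : 3 ∣ orderOf (r * v)
      · linear_combination -s.sa _ o + 2 * s.sb _ o + t.sing _ o - v0 v hv - 2 * v3 v hv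
      · linear_combination s.reg _ o + t.rb _ o + t.rc _ o + 2 * v0 v hv + v3 v hv
    rw [mb, mc, L.mu5 n23 F s.na.ne (ne_of_deg (by omega)) (by omega) (by omega) (by omega),
      L.mu5 n23 F s.nc.ne (ne_of_deg (by omega)) (by omega) (by omega) (by omega)] at this
    simp at this
  · exact Or.inr ⟨⟨b, c, t⟩, s⟩

end Loc

end MQ
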