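import Cfsg.Agent.MQ.Pc

/-! The numerical check on the column of the involution inverting an element of order 11. -/

set_option autoImplicit false

namespace MQ

/-- candidates for the value at an involution inverting an element of order 11 -/
def cv (d : ℕ) (e : ℤ) (c : ℕ) : List ℤ :=
  (mv d (244823040 / c) c).filter fun a => decide (11 * |a| ≤ |d + 10 * e|)

/-- the possible centralizer orders -/
def C10 : List ℕ := (H2.dvs 512).flatMap fun a => (H2.dvs 189).map fun b => 10 * (a * b)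

set_option synthInstance.maxSize 20000 in
set_option synthInstance.maxHeartbeats 400000 in
set_option maxRecDepth 100000 in
theorem chkT : ∀ c ∈ C10, ∀ q ∈ cv 45 1 c, ∀ n ∈ cv 990 0 c, q + n ∈ cv 1035 1 c →
    ∀ s ∈ cv 1035 1 c, 91080 - 88 * (s * s) + 45 * ((s + n - 1) * (s + n - 1)) - 92 * (n * n) = 0 →
    s + n - 1 ∈ cv 2024 0 c → ∀ a ∈ cv 252 (-1) c, (s + n - 2 - a) % 5 = 1 →
    s + n - 2 - a ∈ cv 1771 0 c → ∀ b ∈ cv 5796 (-1) c, b % 5 = 1 → ∀ e ∈ cv 3312 1 c,
    ∀ u ∈ [((276 : ℕ), (1 : ℤ), (736 : ℕ)), (230, -1, 230)], ∀ f ∈ cv u.1 u.2.1 c,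
    ∀ h ∈ [1 + 2 * q + 2 * (q + n) + s + e - a - b + u.2.1 * f],
    1 + 2 * (q * q) + 2 * ((q + n) * (q + n)) + s * s + e * e + a * a + b * b + f * f + h * h +
      (s + n - 1) * (s + n - 1) + (b - a) * (b - a) + (s + n - 2 - a) * (s + n - 2 - a) ≤ c →
    h ∈ cv u.2.2 (-1) c →
    244823040 + 10881024 * (q * q) + 236544 * (2 * ((q + n) * (q + n)) + s * s) + 73920 * (e * e) -
      971520 * (a * a) - 42240 * (b * b) + u.2.1 * (244823040 / u.1 : ℕ) * (f * f) -
      (244823040 / u.2.2 : ℕ) * (h * h) ≠ 11 * (c * c) := by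
  decide +kernel

end MQ
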