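import Cfsg.Agent.MQ.End1
import Cfsg.Agent.H2.M11a
import Cfsg.Agent.H8.Blk

/-! A simple group of order 244823040 with a character of degree 23: Brauer's trick. -/

set_option autoImplicit false
set_option linter.unusedSectionVars false

namespace MQ.En
open Cfsg H8 H2 Subgroup MulAction

variable {G : Type*} [Group G] [Fintype G] [IsSimpleGroup G]

theorem dv_ind {N B : ℕ} (h0 : 0 < N) (h : N < B * B) {P : ℕ → Prop}
    (H : ∀ d < B, d ∣ N → P d ∧ P (N / d)) {m : ℕ} (hm : m ∣ N) : P m := by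
  obtain ⟨k, rfl⟩ := hm
  by_cases e : m < B
  · exact (H m e (Dvd.intro _ rfl)).1
  have k0 : 0 < k := Nat.pos_of_mul_pos_left h0
  have := (H k (by by_contra c; push Not at c e; exact absurd (Nat.mul_le_mul e c) h.not_ge)
    (Dvd.intro_left _ rfl)).2
  rwa [Nat.mul_div_cancel _ k0] at this

theorem ex_y {x : G} (h : DefOne 23 x) (hV : h.V = ⊥) (he : Nat.card h.H = 11) :
    ∃ y ∈ Nx x, y * x * y⁻¹ = x ^ 2 ∧ orderOf y = 11 := by
  have h1 : Nontrivial h.H := Finite.one_lt_card_iff_nontrivial.1 (by omega)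
  obtain ⟨u, hu⟩ := exists_ne (1 : h.H)
  have h2 : ∀ a : ZMod 23, a ^ 11 = 1 → a ≠ 1 → ∃ k < 11, a ^ k = 2 := by decide +kernel
  obtain ⟨k, -, hk⟩ := h2 (u.1 : ZMod 23) (by
    rw [← he, ← Units.val_pow_eq_pow_val, ← SubmonoidClass.coe_pow, pow_card_eq_one']; rfl)
    fun e => hu (Subtype.ext (Units.ext e))
  obtain ⟨y, hy, e⟩ := exists_nu_eq h (pow_mem u.2 k)
  rw [Units.val_pow_eq_pow_val, hk] at e
  have h3 : y ∉ Cx x := fun h3 => by
    rw [mem_Cx.1 h3, mul_inv_cancel_right] at e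
    exact absurd (h.xp_injective ((xp_one x).trans e)) (by decide)
  exact ⟨y, hy, e, orderOf_eq_prime (he ▸ pow_eq_one_of_Nx h hV hy h3)
    (by rintro rfl; exact h3 (one_mem _))⟩

theorem ex_n {y : G} (k : DefOne 11 y) (kV : k.V = ⊥) (ke : Nat.card k.H = 10) :
    ∃ n ∈ Nx y, n * y * n⁻¹ = y ^ 2 ∧ orderOf n = 10 ∧ orderOf (n ^ 2) = 5 ∧
      ∀ i : ZMod 5, i ≠ 0 → xp (n ^ 2) i ∉ Cx y := by
  obtain ⟨n, hn⟩ := isConj_iff.1 (isConj_xp k ke (i := 2) (by decide))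
  have nN : n ∈ Nx y := H9.mem_Nor.2 (hn ▸ k.mem_zpowers_iff.2 ⟨_, rfl⟩)
  have np : ∀ j : ℕ, n ^ j ∈ Cx y ↔ (2 : ZMod 11) ^ j = 1 := fun j => by
    have e1 : (k.nu ⟨n, nN⟩ : ZMod 11) = 2 := k.xp_injective ((k.nu_spec ⟨n, nN⟩).symm.trans hn)
    rw [← e1, ← Units.val_pow_eq_pow_val, Units.val_eq_one, ← map_pow, k.nu_eq_one_iff]
    rfl
  have n10 : n ^ 10 = 1 := ke ▸ pow_eq_one_of_Nx k kV nN fun e =>
    absurd ((np 1).1 (by rwa [pow_one])) (by decide)
  have n1 : ∀ j : ℕ, (2 : ZMod 11) ^ j ≠ 1 → n ^ j ≠ 1 := fun j a e => a ((np j).1 (e ▸ one_mem _))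
  refine ⟨n, nN, hn, orderOf_eq_of_pow_and_pow_div_prime (by decide) n10 fun p hp hd => ?_,
    orderOf_eq_prime (by rw [← pow_mul, n10]) (n1 2 (by decide)), fun i hi e => ?_⟩
  · have := Nat.le_of_dvd (by decide) hd
    refine n1 _ ?_
    interval_cases p <;> first | decide | exact absurd hd (by decide) | exact absurd hp (by decide)
  · rw [xp, ← pow_mul, np] at e
    revert i; decide

theorem val5 {y r : G} (k : DefOne 11 y) (k5 : DefOne 5 r) (l5 : Nat.card k5.H = 4)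
    (rN : r ∈ Nx y) (rC : ∀ i : ZMod 5, i ≠ 0 → xp r i ∉ Cx y) {χ : IrrCharacter G}
    {j : ℕ} (hj : j < 3) (hd : deg χ = 11 * j + 1)
    (a1 : ∀ i : ZMod 11, i ≠ 0 → χ.1 (xp y i) = (1 : ℤ)) : χ.1 r = j + 1 := by
  classical
  obtain ⟨b, b1, b2, -⟩ := exists_int_val k5 l5 χ
  have r1 := rC 1 (by decide)
  rw [xp_one] at r1
  have b3 := abs_le.1 (abs_le_of_coset k χ a1 (m := j + 1) (by rw [hd]; push_cast; ring) rN r1 b2)
  obtain ⟨d, ρ, e⟩ := irr_isCharacter χ.2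
  obtain ⟨m, hm⟩ := exists_nat_sum_xp' (p := 5) (x := (⟨r, rN⟩ : Nx y))
    (Subtype.ext k5.pow_p) (isChar_fixed ρ (zpowers y))
  simp only [trace_mul_avg, e, Nat.card_zpowers, k.ord] at hm
  rw [sum_xp_const (a := b) fun i hi => by
    erw [sum_coset k χ (n := xp r i) (pow_mem rN _) (rC i hi), b1 i hi]; push_cast; ring] at hm
  simp only [xp_zero, OneMemClass.coe_one, one_mul, sum_zpowers_const k χ a1, hd] at hm
  have : j + 1 + 4 * b = 5 * m := by
    have : ((j + 1 + 4 * b : ℤ) : ℂ) = ((5 * m : ℤ) : ℂ) := by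
      push_cast at hm ⊢; linear_combination hm
    exact_mod_cast this
  rw [abs_of_nonneg (by omega)] at b3
  rw [b2, show b = j + 1 by omega]; simp

theorem num {k m l c : ℕ} (h1 : k = m * 253) (h2 : k = l * c) (h3 : l % 11 = 1)
    (h4 : c = 55 ∨ c = 110) (h5 : m = 70 ∨ m = 1680 ∨ m = 40320 ∨ m = 967680) :
    k = 10200960 ∧ c = 55 ∨ k = 244823040 := by
  rcases h4 with rfl | rfl <;> rcases h5 with rfl | rfl | rfl | rfl <;> omega

set_option synthInstance.maxSize 1024 in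
theorem sub_card (hN : Nat.card G = 244823040) {x y n : G} (h : DefOne 23 x) (k : DefOne 11 y)
    (nx : Nat.card (Nx x) = 253) (ny : Nat.card (Nx y) = 110) (hy : y ∈ Nx x) (nN : n ∈ Nx y)
    (on : orderOf n = 10) (or : orderOf (n ^ 2) = 5) {K : Subgroup G} (k1 : x ∈ K) (k2 : y ∈ K)
    (k3 : n ^ 2 ∈ K) : Nat.card K = 10200960 ∧ n ∉ K ∨ Nat.card K = 244823040 := by
  obtain ⟨m, m1, m2⟩ := card_eq_mul_Nx h k1
  rw [card_inf_eq (Cx_le_Nx self_mem_Cx) k1 hy k2 (by rw [h.ord, k.ord]; decide)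
    (by rw [h.ord, k.ord, nx]), nx] at m2
  have m3 := card_subgroup_dvd_card K
  have m4 := orderOf_dvd_natCard K k3
  rw [hN, m2] at m3
  rw [or, m2] at m4
  obtain ⟨l, l1, l2⟩ := card_eq_mul_Nx k k2
  have l3 := orderOf_dvd_natCard _ (mem_inf.2 ⟨pow_mem nN 2, k3⟩)
  have l4 := orderOf_dvd_natCard _ (mem_inf.2 ⟨Cx_le_Nx (self_mem_Cx (x := y)), k2⟩)
  have l5 := Nat.le_of_dvd (by omega) (card_dvd_of_le (inf_le_left : Nx y ⊓ K ≤ _))
  have l6 : 0 < Nat.card ↥(Nx y ⊓ K) := Nat.card_pos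
  have l8 : n ∈ K → 10 ∣ Nat.card ↥(Nx y ⊓ K) := fun e =>
    on ▸ orderOf_dvd_natCard _ (mem_inf.2 ⟨nN, e⟩)
  rw [or] at l3
  rw [k.ord] at l4
  have l7 : Nat.card ↥(Nx y ⊓ K) = 55 ∨ Nat.card ↥(Nx y ⊓ K) = 110 := by omega
  have := dv_ind (N := 967680) (B := 984) (by norm_num) (by norm_num)
    (P := fun m => m % 23 = 1 → 5 ∣ m → m = 70 ∨ m = 1680 ∨ m = 40320 ∨ m = 967680)
    (by decide +kernel) (Nat.dvd_of_mul_dvd_mul_right (by norm_num : 0 < 253) m3) m1 (by omega)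
  refine num m2 l2 l1 l7 this |>.imp_left fun e => ⟨e.1, fun a => ?_⟩
  have := l8 a
  omega

end MQ.En

namespace MQ
open Cfsg H8 H2 Subgroup MulAction En

variable {G : Type*} [Group G] [Fintype G] [IsSimpleGroup G]

/-- the endgame, from a proper subgroup -/
theorem endgame' (hN : Nat.card G = 244823040) {x : G} (h : DefOne 23 x) (hV : h.V = ⊥)
    (he : Nat.card h.H = 11)
    (l11 : ∀ (y : G) (k : DefOne 11 y), k.V = ⊥ ∧ Nat.card k.H = 10)
    (hH : ∀ y ∈ Nx x, DefOne 11 y → ∀ r ∈ Nx y, orderOf r = 5 →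
      (∀ i : ZMod 5, i ≠ 0 → xp r i ∉ Cx y) → Nx x ⊔ zpowers r ≠ ⊤) : Nonempty (G ≃* M24) := by
  obtain ⟨y, hy, hyx, oy⟩ := ex_y h hV he
  have k : DefOne 11 y := ⟨oy, by rw [hN]; decide⟩
  obtain ⟨kV, ke⟩ := l11 y k
  have ny : Nat.card (Nx y) = 110 := by rw [k.card_Nx, k.card_Cx, kV, card_bot, ke]
  have nx : Nat.card (Nx x) = 253 := by rw [h.card_Nx, h.card_Cx, hV, card_bot, he]
  obtain ⟨n, nN, hn, on, or, rC⟩ := ex_n k kV ke
  have key := fun K => sub_card hN h k nx ny hy nN on or (K := K)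
  have m1 : x ∈ Nx x ⊔ zpowers (n ^ 2) := mem_sup_left (Cx_le_Nx self_mem_Cx)
  have m2 : y ∈ Nx x ⊔ zpowers (n ^ 2) := mem_sup_left hy
  obtain ⟨c1, c2⟩ := (key _ m1 m2 (mem_sup_right (mem_zpowers _))).resolve_right fun e =>
    hH y hy k _ (pow_mem nN 2) or rC (eq_top_of_card_eq _ (e.trans hN.symm))
  refine iso hN h.ord hyx hn ?_ m1 m2 c2 fun K k1 k2 k3 => eq_top_of_card_eq _
    (((key K k1 k2 (pow_mem k3 2)).resolve_left fun e => e.2 k3).trans hN.symm)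
  have e1 := (Nx x ⊔ zpowers (n ^ 2)).card_mul_index
  rw [c1, hN] at e1
  omega

/-- the endgame, from a character of degree 12 or 23 -/
theorem endgame (hN : Nat.card G = 244823040) {x : G} (h : DefOne 23 x) (hV : h.V = ⊥)
    (he : Nat.card h.H = 11)
    (l11 : ∀ (y : G) (k : DefOne 11 y), k.V = ⊥ ∧ Nat.card k.H = 10)
    (l5 : ∀ (r : G) (k : DefOne 5 r), Nat.card k.H = 4)
    {χ : IrrCharacter G} (hd : deg χ = 12 ∨ deg χ = 23) : Nonempty (G ≃* M24) := by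
  classical
  refine endgame' hN h hV he l11 fun y hy k r rN or rC => ?_
  obtain ⟨kV, ke⟩ := l11 y k
  have cy : Nat.card (Cx y) = 11 := by rw [k.card_Cx, kV, card_bot]
  have k5 : DefOne 5 r := ⟨or, by rw [hN]; decide⟩
  obtain ⟨j, j0, j4, hj⟩ : ∃ j, 0 < j ∧ j < 3 ∧ deg χ = 11 * j + 1 := by
    rcases hd with e | e
    exacts [⟨1, by omega⟩, ⟨2, by omega⟩]
  obtain ⟨a, a1, a2, a3⟩ := exists_int_val k ke χ
  obtain rfl : a = 1 := by
    have := sq_list_le (l := [χ]) (by simp) y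
    rw [cy] at this
    simp only [List.map, List.sum_cons, List.sum_nil, a2, Complex.normSq_intCast, add_zero] at this
    have : a * a ≤ 11 := by exact_mod_cast this
    have : a < 4 := by nlinarith
    have : -4 < a := by nlinarith
    omega
  have b2 := val5 k k5 (l5 _ k5) rN rC j4 hj a1
  have r1 := rC 1 (by decide)
  rw [xp_one] at r1
  refine brauer_trick (χ := χ) (D := zpowers y) (ne_of_deg (by rw [deg_one1]; omega))
    (zpowers_le.2 hy) ?_ rN ?_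
  · obtain ⟨m, hm⟩ := exists_nat_sum_xp' h.pow_p (irr_isCharacter χ.2)
    have xN : zpowers x ≤ Nx x := le_normalizer
    rw [← sum_zpowers h] at hm
    rw [L.sum_eq_sum_subgroup_add ((zpowers x).subgroupOf (Nx x)) fun a => χ.1 a,
      Fintype.sum_equiv (subgroupOfEquivOfLe xN).toEquiv (fun d => χ.1 d.1.1) (fun d => χ.1 d)
        fun _ => rfl, hm,
      Finset.sum_congr rfl (g := fun a => if a ∈ (zpowers x).subgroupOf (Nx x) then 0 else 1)]
    · simp only [← ite_not (p := _ ∈ _), Finset.sum_boole]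
      norm_cast
      refine fun e => (Finset.card_pos.2 ⟨⟨y, hy⟩, ?_⟩).ne' (Nat.eq_zero_of_add_eq_zero_left e)
      simp only [Finset.mem_filter, Finset.mem_univ, true_and, mem_subgroupOf]
      intro e
      have := orderOf_dvd_of_mem_zpowers e
      rw [k.ord, h.ord] at this
      omega
    intro g _
    split_ifs with e
    · rfl
    have h2 : (g : G) ∉ Cx x := fun h2 => by
      obtain ⟨i, e2⟩ := h.mem_zpowers_of_V_eq_bot hV h2
      exact e (h.mem_zpowers_iff.2 ⟨i, e2⟩)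
    rw [val_of_pow k χ a1 (he ▸ pow_eq_one_of_Nx h hV g.2 h2) fun e => h2 (by rw [e]; exact one_mem _)]
    simp
  · rw [sum_coset k χ rN r1, sum_zpowers_const k χ a1, b2, hj]; push_cast; ring

end MQ
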