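import Cfsg.Agent.MQ.E3b
import Cfsg.Agent.MQ.E3c
import Cfsg.Agent.MQ.End

/-! The column of the involution inverting an element of order 11, when `e₇ = 3`. -/

set_option autoImplicit false
set_option linter.unusedSectionVars false

namespace MQ
open Cfsg H8 H2 Subgroup
open scoped ComplexConjugate

variable {G : Type*} [Group G] [Fintype G] {x y w : G}

theorem nd {l : List (IrrCharacter G)} (h : l.Pairwise fun a b => deg a = deg b → a ≠ b) :
    l.Nodup := h.imp fun {a b} h (e : a = b) => h (congrArg deg e) e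

/-- an involution `t` inverting `y` and centralizing `r` -/
structure Tt (y r t : G) : Prop where
  ot : orderOf t = 2
  or : orderOf r = 5
  inv : t * y * t⁻¹ = y⁻¹
  cm : t ∈ Cx r

namespace Loc
variable [IsSimpleGroup G] (L : Loc x y)
include L

theorem exists_tt : ∃ r t, Tt y r t := by
  obtain ⟨n, -, hn, on, or, -⟩ := En.ex_n L.hy L.vy L.ey
  have p : ∀ j : ℕ, n ^ j * y * (n ^ j)⁻¹ = y ^ 2 ^ j := fun j => by
    induction j with
    | zero => simp
    | succ j ih =>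
      calc _ = n * (n ^ j * y * (n ^ j)⁻¹) * n⁻¹ := by rw [pow_succ']; group
        _ = _ := by rw [ih, ← conj_pow, hn, ← pow_mul, pow_succ']
  refine ⟨n ^ 2, n ^ 5, by rw [orderOf_pow' _ (by decide), on]; rfl, or, ?_,
    mem_Cx.2 (by rw [← pow_add, ← pow_add])⟩
  rw [p, eq_inv_iff_mul_eq_one, ← pow_succ, show 2 ^ 5 + 1 = 11 * 3 from rfl, pow_mul, L.hy.pow_p,
    one_pow]

variable {r t : G} (A : Tt y r t)
include A

theorem c10 : Nat.card (Cx t) ∈ C10 := by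
  have t1 : t ≠ 1 := fun e => by simpa [e] using A.ot
  have h1 := L.cx_dvd t1 (by rw [A.ot]; decide) (by rw [A.ot]; decide)
  have h2 : 2 ∣ Nat.card (Cx t) := A.ot ▸ orderOf_dvd_natCard _ self_mem_Cx
  have h5 : 5 ∣ Nat.card (Cx t) := A.or ▸ orderOf_dvd_natCard _ (mem_Cx.2 (mem_Cx.1 A.cm).symm)
  obtain ⟨m, hm⟩ : 10 ∣ Nat.card (Cx t) := by omega
  rw [hm, show 967680 = 10 * (512 * 189) from rfl, Nat.mul_dvd_mul_iff_left (by norm_num)] at h1
  obtain ⟨a, b, ha, hb, rfl⟩ := Nat.dvd_mul.1 h1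
  simp only [C10, List.mem_flatMap, List.mem_map]
  exact ⟨a, mem_dvs (by norm_num) ha, b, mem_dvs (by norm_num) hb, hm.symm⟩

theorem tv {χ : IrrCharacter G} (h1 : χ ≠ one1 G) :
    χ.1 t = vl t χ ∧ vl t χ ∈ cv (deg χ) (vlD (deg χ)) (Nat.card (Cx t)) := by
  obtain ⟨a, ha, -, h2⟩ := L.inv_mv A.ot h1
  rw [vl_eq ha, ← L.vld h1]
  refine ⟨ha, List.mem_filter.2 ⟨L.index_eq t ▸ h2, decide_eq_true ?_⟩⟩
  obtain ⟨m, hm⟩ := dvd_val_sub_deg 11 χ (k := 1) (by rw [pow_one, L.hy.pow_p]) (L.vl_y χ)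
  have h3 := abs_le_of_coset L.hy χ (a := vl y χ) (b := a) (m := vl y χ - m)
    (fun i hi => L.vl_xp χ hi) (by push_cast at hm ⊢; linear_combination -hm) (n := t)
    (H9.mem_Nor.2 (A.inv ▸ inv_mem (mem_zpowers y))) (fun e => by
      have e1 := A.inv
      rw [mem_Cx.1 e, mul_inv_cancel_right, eq_inv_iff_mul_eq_one, ← sq,
        ← orderOf_dvd_iff_pow_eq_one, L.hy.ord] at e1
      omega) ha
  rw [show (deg χ : ℤ) + 10 * vl y χ = 11 * (vl y χ - m) by push_cast at hm; linear_combination -hm,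
    abs_mul]
  norm_num
  omega

theorem q11 (F : Full L.hy 10) : 244823040 + ∑ j, F.s j *
    ((244823040 / deg (F.c j) : ℕ) * (vl t (F.c j) * vl t (F.c j))) =
      11 * ((Nat.card (Cx t) : ℤ) * Nat.card (Cx t)) := by
  have t2 : t ^ 2 = 1 := A.ot ▸ pow_orderOf_eq_one t
  have h1 := Full.prs_eq F t t
  have k1 : kk L.hy t = 1 := le_antisymm ((kk_le L.hy t).trans_eq (by rw [L.vy, card_bot]))
    (kk_pos L.hy (by decide) t2 (IsConj.refl t) A.inv)
  have h2 : ((Nat.card (Cx t) : ℂ) * (Cx t).index) = 244823040 := by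
    exact_mod_cast (Cx t).card_mul_index.trans L.hN
  rw [prs_kk L.hy (by decide) t2 t2, k1, L.vy, card_bot, L.hN] at h1
  refine Int.cast_injective (α := ℂ) ?_
  have h3 : ∀ j, (((244823040 / deg (F.c j) : ℕ) : ℤ) : ℂ) = 244823040 / deg (F.c j) := fun j => by
    rw [Int.cast_natCast, Nat.cast_div (L.hN ▸ deg_dvd_card _)
      (Nat.cast_ne_zero.2 (deg_pos _).ne'), Nat.cast_ofNat]
  simp only [Int.cast_add, Int.cast_sum, Int.cast_mul, h3, ← (L.tv A (F.ne_one _)).1]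
  have h4 : ∑ j, (F.s j : ℂ) * (244823040 / deg (F.c j) * ((F.c j).1 t * (F.c j).1 t)) =
      244823040 * ∑ j, (F.s j : ℂ) * ((F.c j).1 t * (F.c j).1 t / deg (F.c j)) := by
    rw [Finset.mul_sum]; exact Finset.sum_congr rfl fun j _ => by ring
  rw [h4]
  push_cast at h1 ⊢
  generalize ∑ j, (F.s j : ℂ) * ((F.c j).1 t * (F.c j).1 t / deg (F.c j)) = Q at *
  linear_combination -(Nat.card (Cx t) : ℂ) ^ 2 * h1 -
    (1 + Q) * (Nat.card (Cx t) * (Cx t).index + 244823040) / 244823040 * h2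

theorem lin11 (F : Full L.hy 10) : 1 + ∑ j, F.s j * vl t (F.c j) = 0 := by
  have := F.lin t (by rw [A.ot]; decide)
  simp only [(L.tv A (F.ne_one _)).1] at this
  exact_mod_cast this

theorem q7 {k : DefOne 7 w} (T : Gen k 2) (t7 : T.Two) (s0 : T.s 0 = -1) (d0 : deg (T.c 0) = 1035)
    (s1 : T.s 1 = 1) (d1 : deg (T.c 1) = 2024) (sE : T.s0 = -1) (dE : deg T.E = 990) :
    vl t (T.c 1) = vl t (T.c 0) + vl t T.E - 1 ∧ 91080 - 88 * (vl t (T.c 0) * vl t (T.c 0)) +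
      45 * (vl t (T.c 1) * vl t (T.c 1)) - 92 * (vl t T.E * vl t T.E) = 0 := by
  have t2 : t ^ 2 = 1 := A.ot ▸ pow_orderOf_eq_one t
  have o : ¬ 7 ∣ orderOf t := by rw [A.ot]; decide
  have a := T.lin' o (fun j => (L.tv A (T.ne_one j)).1) (L.tv A (T.X1 _ T.E_mem)).1
  rw [Fin.sum_univ_two, s0, s1, sE] at a
  refine ⟨by omega, ?_⟩
  have h1 := T.prs_eq o o
  rw [prs_kk k (by decide) t2 t2, kk_nonreal k t7.nonreal, Fin.sum_univ_two, s0, s1, sE, d0, d1,
    dE, (L.tv A (T.ne_one 0)).1, (L.tv A (T.ne_one 1)).1, (L.tv A (T.X1 _ T.E_mem)).1] at h1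
  have n1 : ((Cx t).index : ℂ) ≠ 0 := Nat.cast_ne_zero.2 (index_Cx_pos t).ne'
  have n2 : (Nat.card k.V : ℂ) ≠ 0 := Nat.cast_ne_zero.2 Nat.card_pos.ne'
  have n3 : (Nat.card G : ℂ) ≠ 0 := Nat.cast_ne_zero.2 Nat.card_pos.ne'
  have h2 := (mul_eq_zero.1 ((Nat.cast_zero (R := ℂ)).symm.trans h1).symm).resolve_left
    (div_ne_zero (mul_ne_zero (mul_ne_zero n1 n1) n2) n3)
  refine Int.cast_injective (α := ℂ) ?_
  push_cast at h2 ⊢
  linear_combination 91080 * h2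

end Loc

end MQ
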