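import Cfsg.Agent.MQ.E3d

/-! The case `e₇ = 3`. -/

set_option autoImplicit false
set_option linter.unusedSectionVars false

namespace MQ
open Cfsg H8 H2 Subgroup
open scoped ComplexConjugate

variable {G : Type*} [Group G] [Fintype G] {x y w r t : G}

theorem tr_990 : ∀ t ∈ TR, (t.2.2 = 990 → t.1 = 495 ∧ t.2.1 = 495) ∧
    (t.2.1 = 990 → t.1 = 45 ∧ t.2.2 = 1035 ∨ t.2.2 = 5544) ∧
    (t.2.2 = 1035 → t.1 = 45 ∨ t.2.1 = 45) ∧ (t.2.1 = 1035 → t.2.2 = 3312) := by decide +kernel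

set_option synthInstance.maxSize 2000 in
theorem c23a : ∀ d ∈ DG, trD d % 2 = 1 → ∀ p ∈ DG, (45146 + trD p * p + 2 * trD d * d ≠ 0) ∧
    ∀ q ∈ DG, 22466 + trD p * p + trD q * q + 2 * trD d * d ≠ 0 := by decide +kernel

theorem c11a : ∀ p ∈ DG, ∀ s ∈ [(-782 : ℤ), -5336, -10880, -14147], s + vlD p * p ≠ 0 := by
  decide +kernel

set_option synthInstance.maxSize 2000 in
theorem c11b : ∀ p ∈ DG, ∀ q ∈ DG, (-2807 + vlD p * p + vlD q * q = 0 →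
    -2 + vlD p * trD p + vlD q * trD q ≠ 0) ∧ (460 + vlD p * p + vlD q * q = 0 → p ≠ 23 → q ≠ 23 →
    p * p + q * q ≤ 244823040 → p = 230 ∧ q = 230 ∨ p = 276 ∧ q = 736 ∨ p = 736 ∧ q = 276) := by
  decide +kernel

theorem vt : vlD 45 = 1 ∧ vlD 1035 = 1 ∧ vlD 3312 = 1 ∧ vlD 252 = -1 ∧ vlD 5796 = -1 ∧
    vlD 230 = -1 ∧ vlD 276 = 1 ∧ vlD 736 = -1 ∧ vlD 990 = 0 ∧ vlD 2024 = 0 ∧ vlD 1771 = 0 ∧
    trD 45 = -2 ∧ trD 1035 = 0 ∧ trD 252 = -2 ∧ trD 5796 = 0 ∧ trD 990 = 2 ∧ trD 5544 = 2 := by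
  decide

theorem ex_g0 [IsSimpleGroup G] {k : DefOne 7 w} (T : Gen k 2) (t7 : T.Two) (h3 : 3 ∣ Nat.card k.V) :
    ∃ g, 3 ∣ orderOf g ∧ 7 ∣ orderOf g ∧ T.E.1 g⁻¹ ≠ T.E.1 g ∧ (T.c 0).1 g = T.s 0 := by
  obtain ⟨v, hv, ov⟩ := exists_mem_V k 3 h3
  have c : Commute w v := (mem_Cx.1 (k.V_le hv)).symm
  have o := c.orderOf_mul_eq_mul_orderOf_of_coprime (by rw [k.ord, ov]; decide)
  obtain ⟨u, hu⟩ := T.eta _ T.E_mem
  have a := hu 1 one_ne_zero v hv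
  have b := hu 1 one_ne_zero 1 (one_mem _)
  rw [xp_one] at a b
  rw [mul_one, ← a] at b
  refine ⟨w * v, by rw [o, ov]; exact dvd_mul_left _ _, dvd_ord k hv, ?_, T.val_mul 0 hv⟩
  rw [← char_conj_eq (irr_isCharacter T.E.2), ← b, char_conj_eq (irr_isCharacter T.E.2)]
  exact t7.ne

namespace Loc
variable [IsSimpleGroup G] (L : Loc x y) (n23 : ∀ χ : IrrCharacter G, deg χ ≠ 23) (D : D3S G)
include L n23 D

theorem not_six {E b c : IrrCharacter G} (s : Tr3 E b c) (dE : deg E = 990)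
    (ow : orderOf w = 7) (ne : E.1 w⁻¹ ≠ E.1 w) : False := by
  obtain ⟨r, h⟩ := exists_defOne (G := G) (p := 5) (m := 48964608) L.hN (by decide)
  obtain ⟨F⟩ := exists_full h (n := 4) rfl (L.e5 h)
  obtain ⟨⟨-, d0⟩, -⟩ := L.b5 n23 F
  have o : ¬ 3 ∣ orderOf w := by rw [ow]; decide
  have o' : ¬ 3 ∣ orderOf w⁻¹ := by rwa [orderOf_inv]
  have db := s.deg.1.trans dE
  have dc := s.deg.2.trans dE
  have k : ∀ a a' : IrrCharacter G, a.1 w = E.1 w → a'.1 w⁻¹ = E.1 w⁻¹ → a ≠ cc a' :=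
    fun a a' h1 h2 e => ne (by rw [← h1, ← h2, e, cc_apply])
  have k1 := k E E rfl rfl
  have k2 := k E b rfl (s.rb _ o')
  have k3 := k E c rfl (s.rc _ o')
  have k4 := k b E (s.rb _ o) rfl
  have k5 := k b b (s.rb _ o) (s.rb _ o')
  have k6 := k b c (s.rb _ o) (s.rc _ o')
  have k7 := k c E (s.rc _ o) rfl
  have k8 := k c b (s.rc _ o) (s.rb _ o')
  have k9 := k c c (s.rc _ o) (s.rc _ o')
  have := vt
  rcases L.t252 n23 D F with ⟨α, ξ, -, dα, -⟩ | ⟨⟨b', c', s'⟩, -⟩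
  · obtain ⟨l, d, h1, h2, h3, h4, h5⟩ := L.b23 (l := [E, b, c, cc E, cc b, cc c, F.c 0, α])
      (nd (by simp [*, deg_cc, s.ab, s.ac, s.bc, s.cc.ab, s.cc.ac, s.cc.bc]))
      (by simp [*, deg_cc])
    obtain ⟨p, q, rfl⟩ := List.length_eq_two.1 (show l.length = 2 by simpa using h1)
    refine (c23a d h2 h4 _ (h3 p (by simp))).2 _ (h3 q (by simp)) ?_
    simp [dE, db, dc, d0, dα, deg_cc, this] at h5
    linear_combination h5
  · have db' := s'.deg.1.trans d0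
    have dc' := s'.deg.2.trans d0
    obtain ⟨l, d, h1, h2, h3, h4, h5⟩ := L.b23 (l := [E, b, c, cc E, cc b, cc c, F.c 0, b', c'])
      (nd (by simp [*, deg_cc, s.ab, s.ac, s.bc, s.cc.ab, s.cc.ac, s.cc.bc, s'.ab, s'.ac, s'.bc]))
      (by simp [*, deg_cc])
    obtain ⟨p, rfl⟩ := List.length_eq_one_iff.1 (show l.length = 1 by simpa using h1)
    refine (c23a d h2 h4 _ (h3 p (by simp))).1 ?_
    simp [dE, db, dc, d0, db', dc', deg_cc, this] at h5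
    linear_combination h5

theorem tri45 {E : IrrCharacter G} (dE : deg E = 990) (ow : orderOf w = 7) (ne : E.1 w⁻¹ ≠ E.1 w)
    {g : G} (g3 : 3 ∣ orderOf g) (g7 : 7 ∣ orderOf g) (ne' : E.1 g⁻¹ ≠ E.1 g) :
    ∃ χ S, Tri χ E S ∧ deg χ = 45 ∧ deg S = 1035 := by
  have o : ¬ 3 ∣ orderOf w := by rw [ow]; decide
  rcases D _ (n9 dE) with ⟨a, b, s⟩ | ⟨a, c, s⟩ | ⟨b, c, s⟩
  · exfalso
    obtain ⟨e1, e2⟩ := (tr_990 _ (L.tri s)).1 dE
    have k : ∀ a : IrrCharacter G, N9 a → deg a = 495 → a.1 w⁻¹ = a.1 w := fun a n e => by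
      rw [← cc_apply]
      exact L.odd_reg (by rw [L.trd n.cc.ne, deg_cc, e]; decide) (by rw [L.trd n.ne, e]; decide)
        (by rw [ow]; decide)
    exact ne (by rw [s.reg _ o, s.reg _ (by rwa [orderOf_inv]), k a s.na e1, k b s.nb e2])
  · rcases (tr_990 _ (L.tri s)).2.1 dE with e | e
    · exact ⟨a, c, s, e⟩
    · exfalso
      have k : ∀ g, 7 ∣ orderOf g → c.1 g = 0 := fun g h =>
        irr_eq_zero_of_dvd_deg (by rw [L.hN]; decide) c (by rw [show deg c = _ from e]; decide) h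
      exact ne' (by rw [s.sb _ g3, s.sb _ (by rwa [orderOf_inv]), k _ g7,
        k _ (by rwa [orderOf_inv])])
  · exact (L.not_six n23 D s dE ow ne).elim

end Loc

end MQ
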