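import Cfsg.Agent.H2.Perm12

/-! A simple group of order 244823040 with a character of degree 23. -/

set_option autoImplicit false
set_option linter.unusedSectionVars false

namespace MQ.En
open Cfsg H8 H2 Subgroup MulAction

instance fact23 : Fact (Nat.Prime 23) := ⟨by norm_num⟩

section
variable {G : Type*} [Group G] [Fintype G] {x y : G}

theorem label {Ω : Type*} [Finite Ω] [MulAction G Ω] (hΩ : Nat.card Ω = 24)
    (hx : orderOf x = 23) (hy : y * x * y⁻¹ = x ^ 2) {ω : Ω} (h1 : x • ω = ω) (h2 : y • ω = ω)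
    (h3 : ∃ a : Ω, x • a ≠ a) : ∃ f : Option (ZMod 23) ≃ Ω, f none = ω ∧
      (∀ i, x • f (some i) = f (some (i + 1))) ∧ ∀ i, y • f (some i) = f (some (2 * i)) := by
  have hp : x ^ 23 = 1 := hx ▸ pow_orderOf_eq_one x
  have h4 : ∀ i : ZMod 23, xp x i • ω = ω := fun i => pow_mem (mem_stabilizer_iff.2 h1) _
  have key : ∀ a : Ω, x • a ≠ a → Function.Bijective fun o : Option (ZMod 23) =>
      o.elim ω fun i => xp x i • a := fun a ha => by
    have h5 : ∀ i : ZMod 23, xp x i • a = a → i = 0 := fun i hi => by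
      by_contra h6
      have : xp (xp x i) i⁻¹ • a = a := pow_mem (mem_stabilizer_iff.2 hi) _
      rw [xp_xp hp, inv_mul_cancel₀ h6, xp_one] at this
      exact ha this
    have h6 : ∀ i : ZMod 23, xp x i • a ≠ ω := fun i e => ha (by
      rw [show a = ω by rw [← h4 (-i), ← e, smul_smul, xp_neg_mul_xp hp, one_smul], h1])
    refine (Nat.bijective_iff_injective_and_card _).2 ⟨?_, by simp [hΩ]⟩
    rintro (_ | i) (_ | j) e
    · rfl
    · exact absurd e.symm (h6 j)
    · exact absurd e (h6 i)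
    · simp only [Option.elim_some] at e
      have := h5 (-j + i) (by rw [xp_add hp, mul_smul, e, smul_smul, xp_neg_mul_xp hp, one_smul])
      rw [neg_add_eq_zero.1 this]
  have h7 : ∀ i : ZMod 23, y * xp x i = xp x (2 * i) * y := fun i => by
    rw [← mul_inv_eq_iff_eq_mul, DefOne.conj_xp, hy, mul_comm 2 i, ← xp_xp hp]; rfl
  obtain ⟨a, ha⟩ := h3
  obtain ⟨c, hc⟩ : ∃ c : ZMod 23, xp x c • a = y • a := by
    obtain ⟨_ | c, hc⟩ := (key a ha).2 (y • a)
    · exact absurd (by rw [smul_left_cancel y (h2.trans hc).symm, h1]) ha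
    · exact ⟨c, hc⟩
  have h8 : y • xp x (-c) • a = xp x (-c) • a := by
    rw [smul_smul, h7, mul_smul, ← hc, smul_smul, ← xp_add hp]
    congr 2
    ring
  have h9 : x • xp x (-c) • a ≠ xp x (-c) • a := fun e => ha (by
    rw [smul_smul, (commute_xp (Commute.refl x) _).eq, mul_smul] at e
    exact smul_left_cancel _ e)
  refine ⟨Equiv.ofBijective _ (key _ h9), rfl, fun i => ?_, fun i => ?_⟩
  · simp only [Equiv.ofBijective_apply, Option.elim_some]
    rw [add_comm, xp_add hp, xp_one, mul_smul]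
  · simp only [Equiv.ofBijective_apply, Option.elim_some]
    rw [smul_smul, h7, mul_smul, h8]

def cY : ℕ := 983435072843990828779021698901151808
def cY2 : ℕ := 980668730378935070469623699575545984
def cK : ℕ := 6736580137028735938643161793168384
def cA : ℕ := 962082354895792693790338923348657184
def cI : ℕ := 29435622565346244453937714881988663
def cN : ℕ := 956765793662171983829532039519557312

theorem rep24 [IsSimpleGroup G] {H : Subgroup G} (hH : H.index = 24) (hx : orderOf x = 23)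
    (hy : y * x * y⁻¹ = x ^ 2) (h1 : x ∈ H) (h2 : y ∈ H) :
    ∃ φ : G →* P24, Function.Injective φ ∧ Rep (φ x) alphaC ∧ Rep (φ y) cY ∧
      ∀ g, g ∈ H ↔ φ g (pt 23) = pt 23 := by
  have hi := H9.toPermHom_quotient_injective (H := H) (by rintro rfl; simp at hH)
  have hs : ∀ g : G, g • ((1 : G) : G ⧸ H) = ((1 : G) : G ⧸ H) ↔ g ∈ H := fun g => by
    rw [← mem_stabilizer_iff, stabilizer_quotient]
  obtain ⟨f, f1, f2, f3⟩ := label (Ω := G ⧸ H) hH hx hy ((hs x).2 h1) ((hs y).2 h2) (by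
    by_contra h3
    push Not at h3
    have : x = 1 := hi (by ext a; simpa using h3 a)
    simp [this] at hx)
  let φ : G →* P24 := (f.symm.permCongrHom.toMonoidHom).comp (toPermHom G (G ⧸ H))
  have p1 : ∀ g o, φ g o = f.symm (g • f o) := fun g o => rfl
  have p3 : ∀ (g : G) (Z : ℕ) (σ : ZMod 23 → ZMod 23), g ∈ H →
      (∀ i, g • f (some i) = f (some (σ i))) → (∀ i, ap Z (idx (some i)) = idx (some (σ i))) →
      ap Z 23 = 23 → Rep (φ g) Z := by
    intro g Z σ g1 g2 g3 g4 j hj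
    rw [← idx_pt hj, pt_idx]
    generalize pt j = o
    rcases o with _ | i
    · rw [p1, f1, (hs g).2 g1, ← f1, f.symm_apply_apply]; exact g4.symm
    · rw [p1, g2, f.symm_apply_apply, g3]
  refine ⟨φ, f.symm.permCongrHom.injective.comp hi, p3 x _ (· + 1) h1 f2 (by decide +kernel) rfl,
    p3 y _ (2 * ·) h2 f3 (by decide +kernel) rfl, fun g => ?_⟩
  rw [show pt 23 = none from rfl, p1, f.symm_apply_eq, f1, hs]

end

/-- Test: there is a cycle of prime length `k`. -/
def hasC (k c : ℕ) : Bool :=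
  (List.range 24).any fun a => !Nat.beq (ap c a) a && Nat.beq (itC c k a) a

theorem not_hasC {g : P24} {c n k : ℕ} (h : Rep g c) (hn : g ^ n = 1) (h7 : Nat.gcd k n = 1) :
    hasC k c = false := by
  rw [← Bool.not_eq_true]
  simp only [hasC, List.any_eq_true, List.mem_range, Bool.and_eq_true, Bool.not_eq_true',
    Nat.beq_eq, not_exists, not_and]
  intro a ha h1 h2
  have h3 : Function.IsPeriodicPt g k (pt a) := by
    apply idx_injective
    rw [← Equiv.Perm.coe_pow, h.itC, idx_pt ha, h2]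
  have h4 : Function.IsPeriodicPt g n (pt a) := by
    change g^[n] _ = _
    rw [← Equiv.Perm.coe_pow, hn]; rfl
  have h5 := h3.gcd h4
  rw [h7] at h5
  have h6 : ap c a = a := by rw [← h a ha, show g (pt a) = pt a from h5, idx_pt ha]
  rw [h6, Nat.beq_refl] at h1
  exact Bool.noConfusion h1

def bad (gens : List ℕ) (ws : List (List ℕ)) : Bool :=
  ws.any fun w => force (evalW gens w) fun c => hasC 13 c || hasC 17 c || hasC 19 c

theorem not_bad {G : Type*} [Group G] [Finite G] (φ : G →* P24) (hN : Nat.card G = 244823040)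
    {gens : List ℕ} (h : AllIn φ.range gens) (ws : List (List ℕ)) : bad gens ws = false := by
  rw [bad, List.any_eq_false]
  intro w _
  obtain ⟨_, ⟨g, rfl⟩, h1⟩ := h.evalW w
  have e : φ g ^ 244823040 = 1 := by rw [← map_pow, ← hN, pow_card_eq_one', map_one]
  rw [force_eq, not_hasC h1 e (by decide), not_hasC h1 e (by decide), not_hasC h1 e (by decide)]
  simp

def words : List (List ℕ) := [[0, 2, 1, 0, 2, 2], [0, 1, 2, 0, 2], [0, 0, 2, 1, 2, 2],
  [0, 1, 2, 2, 2], [0, 0, 2, 0, 2], [0, 0, 2, 0, 2, 2], [0, 1, 0, 2], [0, 2, 2, 2, 1],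
  [0, 2, 2, 2, 2], [0, 0, 2], [0, 2, 1, 2, 1], [0, 0, 2, 1]]

theorem check : ∀ u < 24, ∀ v < 24, force (mkC cY2 cK cA cI 1 5 u v) (fun W =>
    !isPerm W || bad [alphaC, cY, W] words || presC W || presC (mulC (mulC cN W) cN)) = true := by
  decide +kernel

variable {G : Type*} [Group G] [Fintype G] [IsSimpleGroup G]

theorem iso_gens (hN : Nat.card G = 244823040) (φ : G →* P24) (hφ : Function.Injective φ) {N : ℕ}
    (h1 : isPerm N = true) (h2 : mulC N N = oneC) (gens : List G)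
    (hgen : ∀ A : Subgroup G, (∀ g ∈ gens, g ∈ A) → A = ⊤)
    (h : ∀ g ∈ gens, ∃ Z, Rep (φ g) Z ∧ presC (mulC (mulC N Z) N) = true) :
    Nonempty (G ≃* M24) := by
  obtain ⟨n, hn⟩ := exists_rep h1
  have hn' : n = n⁻¹ := hn.inv hn h2
  refine iso_of_range_le ((MulAut.conj n).toMonoidHom.comp φ) M24.subtype
    ((MulAut.conj n).injective.comp hφ) ?_ (hN.trans card_M24.symm)
  rw [MonoidHom.range_eq_map, map_le_iff_le_comap, top_le_iff, range_subtype]
  refine hgen _ fun g hg => ?_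
  obtain ⟨Z, a, b⟩ := h g hg
  change n * φ g * n⁻¹ ∈ M24
  rw [← hn']
  exact ((hn.mul a).mul hn).mem_M24 b

theorem iso (hN : Nat.card G = 244823040) {x y n : G} {H : Subgroup G} (hx : orderOf x = 23)
    (hy : y * x * y⁻¹ = x ^ 2) (hn : n * y * n⁻¹ = y ^ 2) (hH : H.index = 24) (h1 : x ∈ H)
    (h2 : y ∈ H) (h3 : n ∉ H) (gen : ∀ K : Subgroup G, x ∈ K → y ∈ K → n ∈ K → K = ⊤) :
    Nonempty (G ≃* M24) := by
  obtain ⟨φ, p1, p2, p3, p5⟩ := rep24 hH hx hy h1 h2
  have p6 : Rep (φ (y ^ 2)) cY2 := by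
    rw [sq, map_mul, show cY2 = mulC cY cY by decide +kernel]; exact p3.mul p3
  have p7 : φ n * φ y = φ (y ^ 2) * φ n := by rw [← map_mul, ← map_mul, ← hn]; simp
  have p4 : ∀ j < 24, Nat.testBit 16777215 j = false → φ n (pt j) = pt j := fun j hj e =>
    absurd e ((by decide : ∀ j < 24, ¬ Nat.testBit 16777215 j = false) j hj)
  obtain ⟨e1, e2⟩ := (fix_two (a := 23) (b := 0) p3 p6 p7 p4 (by decide +kernel)).resolve_left
    fun e => h3 ((p5 n).2 e.1)
  obtain ⟨a, ha, b, hb, p8⟩ := rep_norm (K := cK) (A := cA) (I := cI) (r := 1) (s := 5)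
    (a := 23) (b := 0) p3 p6 p7 p4 (by rw [e1]; decide +kernel) (by rw [e2]; decide +kernel)
    (by decide +kernel)
  have p9 := check a ha b hb
  rw [force_eq, p8.isPerm, not_bad φ hN (.cons ⟨_, ⟨x, rfl⟩, p2⟩
    (.cons ⟨_, ⟨y, rfl⟩, p3⟩ (.cons ⟨_, ⟨n, rfl⟩, p8⟩ (allIn_nil _))))] at p9
  simp only [Bool.not_true, Bool.false_or, Bool.or_eq_true] at p9
  have hg : ∀ A : Subgroup G, (∀ g ∈ [x, y, n], g ∈ A) → A = ⊤ := fun A hA =>
    gen A (hA _ (by simp)) (hA _ (by simp)) (hA _ (by simp))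
  rcases p9 with e | e
  · refine iso_of_range_le φ M24.subtype p1 ?_ (hN.trans card_M24.symm)
    rw [MonoidHom.range_eq_map, map_le_iff_le_comap, top_le_iff, range_subtype]
    exact gen _ (p2.mem_M24 (by decide +kernel)) (p3.mem_M24 (by decide +kernel)) (p8.mem_M24 e)
  · refine iso_gens hN φ p1 (N := cN) (by decide +kernel) (by decide +kernel) _ hg ?_
    simp only [List.forall_mem_cons, List.not_mem_nil, false_imp_iff, implies_true, and_true]
    exact ⟨⟨_, p2, by decide +kernel⟩, ⟨_, p3, by decide +kernel⟩, _, p8, e⟩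

end MQ.En
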