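import Cfsg.Agent.MQ.Loc
import Cfsg.Agent.MQ.End
import Cfsg.Agent.MQ.B7

/-! Reduction of the uniqueness of `M24` to the automizer of a Sylow 7-subgroup. -/

set_option autoImplicit false

namespace MQ
open Cfsg H8 H2 Subgroup

variable {G : Type*} [Group G] [Fintype G] [IsSimpleGroup G]

/-- It suffices to refute the two possible automizers of a Sylow 7-subgroup. -/
theorem final (hN : Nat.card G = 244823040)
    (H : ∀ (x y w : G) (k : DefOne 7 w), Loc x y → (∀ χ : IrrCharacter G, deg χ ≠ 12) →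
      (∀ χ : IrrCharacter G, deg χ ≠ 23) → Nat.card k.H ≠ 3 ∧ Nat.card k.H ≠ 6) :
    Nonempty (G ≃* M24) := by
  obtain ⟨x, y, L⟩ := exists_loc hN
  by_cases h : ∃ χ : IrrCharacter G, deg χ = 12 ∨ deg χ = 23
  · obtain ⟨χ, hd⟩ := h
    exact endgame hN L.hx L.vx L.ex (fun _ k => loc11 hN k) (fun _ k => L.e5 k) hd
  · push Not at h
    obtain ⟨w, k⟩ := exists_defOne (G := G) (p := 7) (m := 34974720) (by rw [hN]) (by norm_num)
    obtain ⟨a, b⟩ := H x y w k L (fun χ => (h χ).1) (fun χ => (h χ).2)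
    have := L.v7 (fun χ => (h χ).2) k
    simp only [List.mem_cons, Prod.mk.injEq, List.not_mem_nil, or_false] at this
    omega

end MQ
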