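import Cfsg.Agent.MQ.E3a

/-! Simple groups of order 244823040: the last principal 11-block without degrees 23 and 45. -/

set_option autoImplicit false
set_option linter.unusedSectionVars false

namespace MQ
open Cfsg H8 H2 Subgroup

variable {G : Type*} [Group G] [Fintype G] {x y w : G} {a b c b' c' : IrrCharacter G}

/-- a character determines its triple -/
theorem Tri.top_eq (t : Tri a b c) (s : Tri a b' c') (h0 : deg b' ≠ deg c) : c = c' := by
  by_contra h1
  have h : c.1 + b'.1 = c'.1 + b.1 := funext fun g => by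
    simp only [Pi.add_apply]
    by_cases h : 3 ∣ orderOf g
    · linear_combination t.sa g h - s.sa g h + s.sb g h - t.sb g h - s.sa g h + t.sa g h
    · linear_combination t.reg g h - s.reg g h
  have := congrArg (classInner · c.1) h
  simp only [classInner_add_left, irr_classInner_self c.2, inner_ne t.bc, inner_ne (Ne.symm h1),
    inner_ne (ne_of_deg h0)] at this
  simp at this

theorem K_small {p1 p2 c d e1 e2 f : ℤ} (h1 : 7 ∣ p1 - 540) (h2 : 7 ∣ p2 - 540) (h3 : 3 ∣ p1)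
    (h4 : 3 ∣ p2) (h5 : 7 ∣ e1 - 3312) (h6 : 3 ∣ e1) (hl : 1 - c + p1 + p2 + d + e1 + e2 + f = 0)
    (hn : 1 + (c * c + p1 * p1 + p2 * p2 + d * d + e1 * e1 + e2 * e2 + f * f) ≤ 168) : False := by
  have k : ∀ z : ℤ, 7 ∣ z - 1 → 3 ∣ z → z * z ≤ 168 → z = -6 := fun z a b c => by
    have : -13 < z ∧ z < 13 := by constructor <;> nlinarith
    omega
  have q := fun z : ℤ => mul_self_nonneg z
  obtain rfl := k p1 (by omega) h3 (by linarith [q c, q p2, q d, q e1, q e2, q f])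
  obtain rfl := k p2 (by omega) h4 (by linarith [q c, q d, q e1, q e2, q f])
  obtain rfl := k e1 (by omega) h6 (by linarith [q c, q d, q e2, q f])
  nlinarith [q (4 * c + 17), q (4 * d - 17), q (4 * e2 - 17), q (4 * f - 17)]

namespace Loc
variable [IsSimpleGroup G] (L : Loc x y) (F : Full L.hy 10)
  (hF : ∀ j, F.s j * deg (F.c j) = ![-5796, -5796, -736, -252, 540, 540, 1035, 3312, 3312, 3840] j)
include hF

theorem a_data (j : Fin 10) :
    deg (F.c j) = ![5796, 5796, 736, 252, 540, 540, 1035, 3312, 3312, 3840] j ∧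
      F.s j = ![-1, -1, -1, -1, 1, 1, 1, 1, 1, 1] j := by
  have h1 := hF j
  have h2 := F.s_eq j
  generalize F.s j = s at *
  generalize deg (F.c j) = d at *
  fin_cases j <;> simp at h1 ⊢ <;> rcases h2 with rfl | rfl <;> omega

theorem a_mem {χ : IrrCharacter G} {n : ℕ} (h : deg χ = n) (h1 : n ≠ 1) (h2 : vlD n ≠ 0) :
    ∃ j, F.c j = χ ∧ ![5796, 5796, 736, 252, 540, 540, 1035, 3312, 3312, 3840] j = n := by
  have h3 : χ ≠ one1 G := ne_of_deg (by rwa [h, deg_one1])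
  obtain ⟨j, hj⟩ := L.mem_F F h3 (by rwa [L.vld h3, h])
  exact ⟨j, hj, by rw [← (L.a_data F hF j).1, hj, h]⟩

theorem a_tri (D : D3S G) : ∃ j, (j = 7 ∨ j = 8) ∧ ∃ ξ ζ, Tri ξ (F.c j) ζ ∧ deg ξ = 5796 := by
  have key : ∀ j, (j = 7 ∨ j = 8) → (∃ ξ ζ, Tri ξ (F.c j) ζ ∧ deg ξ = 5796) ∨
      ∃ b, Tri (F.c 6) b (F.c j) ∧ deg b = 2277 := fun j hj => by
    have d : deg (F.c j) = 3312 := by rcases hj with rfl | rfl <;> exact (L.a_data F hF _).1
    rcases D _ (n9 d) with ⟨a, b, t⟩ | ⟨a, c, t⟩ | ⟨b, c, t⟩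
    · have h1 := L.tri t
      rw [d] at h1
      have h2 : deg a = 1035 ∧ deg b = 2277 ∨ deg b = 1035 ∧ deg a = 2277 := by
        simp only [TR, List.mem_cons, Prod.mk.injEq, List.not_mem_nil, or_false] at h1
        omega
      have h3 : ∀ χ, deg χ = 1035 → F.c 6 = χ := fun χ h => by
        obtain ⟨i, rfl, hi⟩ := L.a_mem F hF h (by decide) (by decide)
        fin_cases i <;> simp at hi ⊢
      rcases h2 with ⟨h2, h4⟩ | ⟨h2, h4⟩
      · exact .inr ⟨b, h3 _ h2 ▸ t, h4⟩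
      · exact .inr ⟨a, h3 _ h2 ▸ t.symm, h4⟩
    · have h1 := L.tri t
      rw [d] at h1
      refine .inl ⟨a, c, t, ?_⟩
      simp only [TR, List.mem_cons, Prod.mk.injEq, List.not_mem_nil, or_false] at h1
      omega
    · exfalso
      obtain ⟨i, rfl, hi⟩ := L.a_mem F hF (t.deg.1.trans d) (by decide) (by decide)
      obtain ⟨l, rfl, hl⟩ := L.a_mem F hF (t.deg.2.trans d) (by decide) (by decide)
      have h1 : i = 7 ∨ i = 8 := by fin_cases i <;> simp at hi ⊢
      have h2 : l = 7 ∨ l = 8 := by fin_cases l <;> simp at hl ⊢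
      have h3 := t.ab
      have h4 := t.ac
      have h5 := t.bc
      rcases hj with rfl | rfl <;> rcases h1 with rfl | rfl <;> rcases h2 with rfl | rfl <;>
        contradiction
  rcases key 7 (.inl rfl) with h | ⟨b, t, hb⟩
  · exact ⟨7, .inl rfl, h⟩
  rcases key 8 (.inr rfl) with h | ⟨b', t', hb'⟩
  · exact ⟨8, .inr rfl, h⟩
  exact absurd (F.inj (t.top_eq t' (by rw [hb', (L.a_data F hF 7).1]; decide))) (by decide)

theorem not_a (n23 : ∀ χ : IrrCharacter G, deg χ ≠ 23) (D : D3S G) (k : DefOne 7 w)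
    (e6 : Nat.card k.H = 6) (ψ : Fin 4 → IrrCharacter G) (hψ : Function.Injective ψ)
    (hψ' : ∀ i, ψ i ≠ F.c 9) (ε : Fin 4 → ℤ) (hε : ∀ i, ε i = 1 ∨ ε i = -1)
    (hreg : ∀ g, ¬ 2 ∣ orderOf g → 2 * (F.c 9).1 g = ∑ i, ε i * (ψ i).1 g) : False := by
  choose a _ ha hm using fun χ => exists_int_val k e6 χ
  have hv := L.v7 n23 k
  rw [e6] at hv
  have hv' : Nat.card k.V = 3 ∨ Nat.card k.V = 24 ∨ Nat.card k.V = 192 ∨ Nat.card k.V = 1536 := by
    simpa using hv
  have hi := (L.idx k (m := 34974720) rfl).2.2.2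
  have hd := fun j => (L.a_data F hF j).1
  have hs := fun j => (L.a_data F hF j).2
  have hc := fun j => irr_deg_dvd_index_mul (F.c j) (ha _)
  have hn := MQ.Full.sq_le F fun j => ha (F.c j)
  rw [k.card_Cx] at hn
  have m9 := hm (F.c 9)
  have c9 := hc 9
  rw [hd] at m9 c9
  simp only [Matrix.cons_val, Nat.cast_ofNat] at m9 c9
  have q := fun z : ℤ => mul_self_nonneg z
  have n9 : a (F.c 9) * a (F.c 9) ≤ 7 * Nat.card k.V := by
    have := Finset.single_le_sum (f := fun j => a (F.c j) * a (F.c j)) (fun j _ => q _)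
      (Finset.mem_univ 9)
    push_cast at hn
    linarith
  rcases or_assoc.2 hv' with h | h | h
  · obtain ⟨s, hsV, hs3⟩ := exists_mem_V k 3 (by omega)
    have o7 : 7 ∣ orderOf (w * s) := dvd_ord k hsV
    have cm : Commute s w := mem_Cx.1 (k.V_le hsV)
    have o3 : 3 ∣ orderOf (w * s) := by
      rw [cm.symm.orderOf_mul_eq_mul_orderOf_of_coprime (by rw [k.ord, hs3]; decide), hs3]
      exact dvd_mul_left _ _
    have z3 : ∀ χ : IrrCharacter G, χ.1 (w * s) = 0 → (3 : ℤ) ∣ a χ := fun χ h0 => by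
      have := dvd_char_sub 3 (irr_isCharacter χ.2) (k := 1) (u := s) (y := w)
        (by rw [pow_one, ← hs3, pow_orderOf_eq_one]) cm (a := 0) (by rw [cm.eq, h0]; simp) (ha χ)
      simpa using this
    have z7 : ∀ j, 7 ∣ deg (F.c j) → a (F.c j) = 0 := fun j h0 => by
      have := irr_eq_zero_of_dvd_deg k.not_sq _ h0 (g := w) (k.ord ▸ dvd_rfl)
      rw [ha] at this
      exact_mod_cast this
    have hl := Full.lin' F (g := w) (by rw [k.ord]; decide) fun j => ha (F.c j)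
    simp only [Fin.sum_univ_succ, Fin.sum_univ_zero, hs, Matrix.cons_val_zero,
      Matrix.cons_val_succ] at hl hn
    have p3 : ∀ j, deg (F.c j) = 540 → (3 : ℤ) ∣ a (F.c j) := fun j e => by
      have := hc j
      rw [e, hi] at this
      rcases h with h | h <;> rw [h] at this <;> norm_num at this <;> omega
    obtain ⟨j, hj, ξ, ζ, t, dξ⟩ := L.a_tri F hF D
    have e3 := z3 (F.c j) (by
      rw [t.sb _ o3, ← t.sa _ o3]
      exact irr_eq_zero_of_dvd_deg k.not_sq _ (by rw [dξ]; decide) o7)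
    have z0 := z7 0 (by rw [hd]; decide)
    have z1 := z7 1 (by rw [hd]; decide)
    have z2 := z7 3 (by rw [hd]; decide)
    have m4 := hm (F.c 4)
    have m5 := hm (F.c 5)
    have m7 := hm (F.c 7)
    have m8 := hm (F.c 8)
    rw [hd] at m4 m5 m7 m8
    have hl' : 1 - a (F.c 2) + a (F.c 4) + a (F.c 5) + a (F.c 6) + a (F.c 7) + a (F.c 8) +
        a (F.c 9) = 0 := by
      change 1 + (-1 * a (F.c 0) + (-1 * a (F.c 1) + (-1 * a (F.c 2) + (-1 * a (F.c 3) +
        (1 * a (F.c 4) + (1 * a (F.c 5) + (1 * a (F.c 6) + (1 * a (F.c 7) + (1 * a (F.c 8) +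
        (1 * a (F.c 9) + 0)))))))))) = 0 at hl
      omega
    have hn' : 1 + (a (F.c 2) * a (F.c 2) + a (F.c 4) * a (F.c 4) + a (F.c 5) * a (F.c 5) +
        a (F.c 6) * a (F.c 6) + a (F.c 7) * a (F.c 7) + a (F.c 8) * a (F.c 8) +
        a (F.c 9) * a (F.c 9)) ≤ 168 := by
      change 1 + (a (F.c 0) * a (F.c 0) + (a (F.c 1) * a (F.c 1) + (a (F.c 2) * a (F.c 2) +
        (a (F.c 3) * a (F.c 3) + (a (F.c 4) * a (F.c 4) + (a (F.c 5) * a (F.c 5) +
        (a (F.c 6) * a (F.c 6) + (a (F.c 7) * a (F.c 7) + (a (F.c 8) * a (F.c 8) +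
        (a (F.c 9) * a (F.c 9) + 0)))))))))) ≤ _ at hn
      rw [z0, z1, z2] at hn
      omega
    rcases hj with rfl | rfl
    · exact K_small m4 m5 (p3 4 (hd 4)) (p3 5 (hd 5)) m7 e3 hl' hn'
    · exact K_small (e2 := a (F.c 7)) (d := a (F.c 6)) (c := a (F.c 2)) (f := a (F.c 9)) m4 m5
        (p3 4 (hd 4)) (p3 5 (hd 5)) m8 e3 (by omega) (by omega)
  · rw [hi, h] at c9
    rw [h] at n9
    norm_num at c9 n9
    have f32 : a (F.c 9) = 32 := by
      have : -37 < a (F.c 9) ∧ a (F.c 9) < 37 := by constructor <;> nlinarith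
      omega
    have h1 := hreg w (by rw [k.ord]; decide)
    simp only [ha, f32, Fin.sum_univ_four] at h1
    have h2 : 2 * 32 = ε 0 * a (ψ 0) + ε 1 * a (ψ 1) + ε 2 * a (ψ 2) + ε 3 * a (ψ 3) := by
      exact_mod_cast h1
    have h3 := sq_list_le (l := [F.c 9, ψ 0, ψ 1, ψ 2, ψ 3]) (by
      simp [(hψ' _).symm, hψ.eq_iff]) w
    simp only [List.map_cons, List.map_nil, List.sum_cons, List.sum_nil, ha, f32,
      Complex.normSq_intCast, k.card_Cx, h] at h3
    have h4 : 32 * 32 + (a (ψ 0) * a (ψ 0) + (a (ψ 1) * a (ψ 1) + (a (ψ 2) * a (ψ 2) +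
      (a (ψ 3) * a (ψ 3) + 0)))) ≤ (7 * 192 : ℤ) := by exact_mod_cast h3
    have h5 : ∀ i, ε i * a (ψ i) * (ε i * a (ψ i)) = a (ψ i) * a (ψ i) := fun i => by
      rw [mul_mul_mul_comm, sgn_sq (hε i), one_mul]
    rw [← h5, ← h5, ← h5, ← h5] at h4
    generalize ε 0 * a (ψ 0) = b0 at *
    generalize ε 1 * a (ψ 1) = b1 at *
    generalize ε 2 * a (ψ 2) = b2 at *
    generalize ε 3 * a (ψ 3) = b3 at *
    nlinarith [q (b0 - 16), q (b1 - 16), q (b2 - 16), q (b3 - 16)]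
  · rw [hi, h] at c9
    rw [h] at n9
    norm_num at c9 n9
    have : -104 < a (F.c 9) ∧ a (F.c 9) < 104 := by constructor <;> nlinarith
    omega

end Loc
end MQ
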