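import Cfsg.Agent.MQ.E3b

/-! Characters of degrees 252 and 3840 exist. -/

set_option autoImplicit false
set_option linter.unusedSectionVars false

namespace MQ
open Cfsg H8 H2 Subgroup
open scoped ComplexConjugate

variable {G : Type*} [Group G] [Fintype G] {x y r : G} {a b c d : IrrCharacter G}

theorem sq_deg_le {l : List (IrrCharacter G)} (hl : l.Nodup) :
    (l.map fun χ => (deg χ : ℤ) * deg χ).sum ≤ Nat.card G := by
  have h := sq_list_le hl 1
  have e : Cx (1 : G) = ⊤ := by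
    rw [eq_top_iff]; intro g _; simp [Cx, mem_centralizer_iff]
  rw [e, card_top] at h
  have : ((l.map fun χ => (deg χ : ℤ) * deg χ).sum : ℝ) =
      (l.map fun χ => Complex.normSq (χ.1 1)).sum := by
    induction l with
    | nil => simp
    | cons a l ih => simp [deg_eq, Function.comp_def]
  exact_mod_cast this ▸ h

theorem lin_le {α : Type*} {f g : α → ℤ} {A B : ℤ} {l : List α}
    (h : ∀ a ∈ l, A * f a - B ≤ g a) : A * (l.map f).sum - B * l.length ≤ (l.map g).sum := by
  induction l with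
  | nil => simp
  | cons a l ih =>
    have h1 := h a (by simp)
    have h2 := ih fun b hb => h b (by simp [hb])
    simp only [List.map_cons, List.sum_cons, List.length_cons]
    push_cast
    linarith

theorem n2_chk : ∀ d ∈ DG, 4600 * (vlD d * d) - 4265856 ≤ (d : ℤ) * d := by decide +kernel

theorem n2_chk' : ∀ d ∈ DG, ∀ s ∈ [(1 : ℤ), -1], 2 * s = trD d → d ≠ 45 → d ≠ 3840 →
    0 ≤ s * vlD d ∧ (d = 252 → s * vlD d = 1) := by decide +kernel

namespace Loc
variable [IsSimpleGroup G] (L : Loc x y) (n23 : ∀ χ : IrrCharacter G, deg χ ≠ 23)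
include L n23

/-- the triple `252 + 5544 = 5796` -/
theorem ex252 (D : D3S G) {h : DefOne 5 r} (F : Full h 4) :
    ∃ α ξ, Tri α (F.c 0) ξ ∧ deg α = 252 ∧ deg ξ = 5796 := by
  rcases L.t252 n23 D F with e | ⟨⟨b, c, t⟩, b', c', t'⟩
  · exact e
  exfalso
  obtain ⟨⟨-, d0⟩, ⟨-, d1⟩, -⟩ := L.b5 n23 F
  obtain ⟨d2, d3⟩ := L.b5c n23 F
  obtain ⟨e1, e2⟩ := t.deg
  obtain ⟨e3, e4⟩ := t'.deg
  obtain ⟨B⟩ := L.full
  obtain ⟨m, h1, h2, h3, -, h5, -⟩ := L.b11 B (l := [F.c 3, b', c'])
    (by simp [t'.ab, t'.ac, t'.bc]) (by simp [e3, e4, d3, vlD])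
  have n : ([F.c 0, b, c, F.c 1, F.c 2] ++ ([F.c 3, b', c'] ++ m)).Nodup := by
    refine List.Nodup.append ?_ h2 fun χ k1 k2 => (h3 χ k2).2.2 ?_
    · have k1 : F.c 0 ≠ F.c 1 := ne_of_deg (by omega)
      have k2 : F.c 0 ≠ F.c 2 := ne_of_deg (by omega)
      have k3 : b ≠ F.c 1 := ne_of_deg (by omega)
      have k4 : b ≠ F.c 2 := ne_of_deg (by omega)
      have k5 : c ≠ F.c 1 := ne_of_deg (by omega)
      have k6 : c ≠ F.c 2 := ne_of_deg (by omega)
      have k7 : F.c 1 ≠ F.c 2 := ne_of_deg (by omega)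
      simp only [List.nodup_cons, List.mem_cons, List.not_mem_nil, List.nodup_nil, t.ab, t.ac, t.bc,
        k1, k2, k3, k4, k5, k6, k7, or_self, not_false_eq_true, and_self]
    · simp only [List.mem_cons, List.not_mem_nil, or_false] at k1
      rcases k1 with rfl | rfl | rfl | rfl | rfl <;> simp [*, vlD]
  have q := sq_deg_le n
  have l := lin_le (l := m) (f := fun χ => vlD (deg χ) * deg χ) (g := fun χ => (deg χ : ℤ) * deg χ)
    fun χ hχ => n2_chk _ (h3 χ (by simp [hχ])).2.1
  have v : vlD 5796 = -1 := by decide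
  simp only [List.map_append, List.sum_append, List.map_cons, List.sum_cons, List.map_nil,
    List.sum_nil, List.length_cons, List.length_nil, e1, e2, e3, e4, d0, d1, d2, d3, v, L.hN] at q h5 h1
  have : m.length = 7 := by omega
  rw [this] at l
  push_cast at q h5 l
  omega

/-- there is a character of degree 3840 -/
theorem ex3840 (D : D3S G) (n45 : ∀ χ : IrrCharacter G, deg χ ≠ 45) {h : DefOne 5 r}
    (F : Full h 4) : ∃ χ : IrrCharacter G, deg χ = 3840 := by
  by_contra! n
  obtain ⟨α, ξ, t, da, -⟩ := L.ex252 n23 D F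
  obtain ⟨T, w⟩ := L.gen
  obtain ⟨j, hj⟩ := L.mem_c w t.na.ne (by rw [L.trd t.na.ne, da]; decide)
  have k := fun j => n2_chk' _ (L.dg (T.ne_one j)) (T.s j) (by simpa using T.s_eq j)
    (by rw [← L.trd (T.ne_one j), L.tr_c]) (n45 _) (n _)
  have e := L.gen_y T (by decide)
  have s := Finset.single_le_sum (f := fun j => T.s j * vl y (T.c j))
    (fun j _ => by rw [L.vld (T.ne_one j)]; exact (k j).1) (Finset.mem_univ j)
  have s1 := (k j).2 (by rw [hj, da])
  rw [← L.vld (T.ne_one j)] at s1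
  have s2 : -1 ≤ T.s0 * vl y T.E := by
    rw [L.vld (T.X1 _ T.E_mem)]
    unfold vlD
    rcases T.s0_eq with e | e <;> rw [e] <;> split_ifs <;> simp
  omega

end Loc

end MQ
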