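import Cfsg.Agent.MQ.O
import Cfsg.Agent.MQ.K
import Cfsg.Agent.MQ.N2
import Cfsg.Agent.MQ.D3s

/-! The case `e₇ = 6`. -/

set_option autoImplicit false

namespace MQ
open Cfsg H8 H2 Subgroup D3

variable {G : Type*} [Group G] [Fintype G] [IsSimpleGroup G] {x y w : G}

theorem Loc.not_e6 (L : Loc x y) (n12 : ∀ χ : IrrCharacter G, deg χ ≠ 12)
    (n23 : ∀ χ : IrrCharacter G, deg χ ≠ 23) (k : DefOne 7 w) : Nat.card k.H ≠ 6 := fun e6 => by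
  classical
  have n45 : ∀ χ : IrrCharacter G, deg χ ≠ 45 := fun χ d => by
    have := L.e3_of_45 n23 d k; omega
  obtain ⟨r, h⟩ := exists_defOne (G := G) (p := 5) (m := 48964608) L.hN (by decide)
  obtain ⟨F5⟩ := exists_full h (n := 4) rfl (L.e5 h)
  obtain ⟨α, ξ, -, dα, dξ⟩ := L.ex252 n23 (d3s L.hN) F5
  obtain ⟨χ, d⟩ := L.ex3840 n23 (d3s L.hN) n45 F5
  have db : ∀ χ : IrrCharacter G, deg χ = 3840 → ∃ ψ ε, DB χ ψ ε := fun χ d =>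
    (L.opt n23 n45 d).resolve_left fun ⟨_, h1, _, h2⟩ => L.not_A n12 n23 n45 dα dξ h1 h2
  obtain ⟨ψ, ε, D⟩ := db χ d
  by_cases u : ∀ φ : IrrCharacter G, deg φ = 3840 → φ = χ
  · obtain ⟨F⟩ := L.full
    obtain ⟨e, hF⟩ := L.list_a n12 n23 n45 (d3s L.hN) dα D d u dξ F
    exact L.not_a F hF n23 (d3s L.hN) k e6 ψ D.inj (e ▸ D.ne) ε D.sg (e ▸ D.reg)
  · push Not at u
    obtain ⟨χ', d', c⟩ := u
    obtain ⟨ψ', ε', D'⟩ := db χ' d'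
    exact L.not_two n12 n23 n45 dα dξ D D' c.symm d d'

end MQ
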