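import Cfsg.Agent.MQ.La
import Cfsg.Agent.MQ.Lb

/-! Simple groups of order 244823040: the case `e = 10` of the Sylow 11-normalizer. -/

set_option autoImplicit false
set_option linter.unusedSectionVars false

namespace MQ.Lc
open Cfsg H8 H2 Subgroup L23

theorem chk1 : ∀ v ∈ dv, v ∣ 2225664 → v % 11 = 1 → ¬ 7 ∣ v → ¬ 23 ∣ v →
    v = 1 ∨ v = 12 ∨ 144 ∣ v := by decide +kernel

theorem chk2 : ∀ d ∈ dv, d ∣ 154560 → 22 < d → (d % 11 = 1 ∨ d % 11 = 10) →
    ∀ t ∈ [(-2 : ℤ), -1, 0, 1, 2], ((d : ℤ) + 11 * t) % 23 = 0 → t = 0 := by decide +kernel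

variable {G : Type*} [Group G] [Fintype G] [IsSimpleGroup G] {x y : G}

theorem not_23 (L : Lb.Lx x) (k : DefOne 11 y) : ¬ 23 ∣ Nat.card k.V := fun h => by
  obtain ⟨u, hu, ou⟩ := exists_mem_V k 23 h
  exact La.reg_of_not_dvd L.hx k (by decide) (by rw [L.vx, card_bot]; decide) (k.V_le hu)
    (ou ▸ dvd_rfl)

theorem not_144 (L : Lb.Lx x) (k : DefOne 11 y) (he : Nat.card k.H = 10) :
    ¬ 144 ∣ Nat.card k.V := fun h => by
  obtain ⟨T⟩ := exists_gen k (n := 9) he
  obtain ⟨h1, -, -, -, -⟩ := loc_num (nc L.hN) k (m := 22256640) L.hN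
  rw [← k.index_Cx] at h1
  have hI : (Cx y).index ∣ 154560 := by
    obtain ⟨m, hm⟩ := h
    exact ⟨m, by rw [hm] at h1; linarith⟩
  obtain ⟨l1, l2⟩ := T.large (perf L.hN) (fun e => by rw [e, card_bot] at h; omega)
  have key : ∀ χ : IrrCharacter G, χ ≠ one1 G → deg χ ∣ (Cx y).index → 2 * 11 < deg χ →
      (deg χ % 11 = 1 ∨ deg χ % 11 = 10) → tr x χ = 0 := fun χ a b c d =>
    chk2 _ (mem_dv ((b.trans hI).trans (by norm_num))) (b.trans hI) c d _ (L.xt a).2.1
      (L.xt a).2.2.1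
  have o := L.gen_x T (by decide)
  rw [key _ (T.X1 _ T.E_mem) T.dvd0 l2 (by
      have := T.mod0
      rcases T.s0_eq with e | e <;> rw [e] at this <;> omega),
    Finset.sum_eq_zero fun j _ => by
      rw [key _ (T.ne_one j) (T.dvd j) (l1 j) (by
        have := T.mod j
        rcases T.s_eq j with e | e <;> rw [e] at this <;> omega), mul_zero]] at o
  omega

theorem e10 (L : Lb.Lx x) (k : DefOne 11 y) (he : Nat.card k.H = 10) :
    Nat.card k.V = 1 ∨ Nat.card k.V = 12 := by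
  obtain ⟨h1, h2, -, -, -⟩ := loc_num (nc L.hN) k (m := 22256640) L.hN
  rw [he] at h1
  have h3 : (Nx y).index * Nat.card k.V = 2225664 := by linarith
  have h4 : Nat.card k.V ∣ 2225664 := h3 ▸ dvd_mul_left _ _
  have h5 := congrArg (· % 11) h3
  simp only [Nat.mul_mod, h2, one_mul, Nat.mod_mod] at h5
  rcases chk1 _ (mem_dv (h4.trans (by norm_num))) h4 h5
    (not_77 L.hN L.hx L.vx L.ex k) (not_23 L k) with e | e | e
  exacts [Or.inl e, Or.inr e, absurd e (not_144 L k he)]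

/-- the glue -/
theorem loc_of (L : Lb.Lx x) (k : DefOne 11 y) (h5 : Nat.card k.H ≠ 5)
    (h10 : Nat.card k.H = 10 → Nat.card k.V ≠ 12) : k.V = ⊥ ∧ Nat.card k.H = 10 := by
  obtain ⟨-, -, -, h4, h6⟩ := loc_num (nc L.hN) k (m := 22256640) L.hN
  have h2 := not_e2 L.hN k (not_77 L.hN L.hx L.vx L.ex k)
  have he : Nat.card k.H = 10 := by
    have := Nat.le_of_dvd (by norm_num) h4
    generalize Nat.card k.H = e at *
    interval_cases e <;> simp_all
  exact ⟨card_eq_one.1 ((e10 L k he).resolve_right (h10 he)), he⟩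

end MQ.Lc
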