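import Cfsg.Agent.MQ.Lb
import Cfsg.Agent.MQ.B7

/-! Simple groups of order 244823040: tools for the case `e = 10`, `|V| = 12` at the prime 11. -/

set_option autoImplicit false
set_option linter.unusedSectionVars false

namespace MQ.Ld
open Cfsg H8 H2 Subgroup MQ.Lb

variable {G : Type*} [Group G] [Fintype G] {x y r : G}

theorem fixedChar {χ : G → ℂ} (hχ : IsCharacter G χ) (D : Subgroup G) [Fintype D] :
    IsCharacter (normalizer (D : Set G)) fun n => (Nat.card D : ℂ)⁻¹ * ∑ d : D, χ (n * d) := by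
  obtain ⟨m, ρ, rfl⟩ := hχ
  simpa only [trace_mul_avg] using isChar_fixed ρ D

theorem not_Cx (k : DefOne 11 y) (hv : Nat.card k.V = 12) {g : G} (hg : g ∈ Cx y)
    (h5 : g ^ 5 = 1) : g = 1 := by
  have e1 := orderOf_dvd_natCard (⟨_, hg⟩ : Cx y)
  rw [k.card_Cx, hv, orderOf_dvd_iff_pow_eq_one, Subtype.ext_iff,
    SubmonoidClass.coe_pow, OneMemClass.coe_one] at e1
  simpa using pow_gcd_eq_one.2 ⟨h5, e1⟩

/-- an element of order 5 normalizing `⟨y⟩` centralizes `V` -/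
theorem V_le (k : DefOne 11 y) (hv : Nat.card k.V = 12) (h : DefOne 5 r) (hr : r ∈ Nx y) :
    k.V ≤ h.V := by
  have h1 := H9.card_modEq_card_inter_Cen (p := 5) (· ∈ k.V) r (k := 1)
    (by rw [pow_one, h.pow_p]) fun g hg => k.conj_mem_V hr hg
  have h2 : Nat.card {g // g ∈ k.V ∧ g ∈ H9.Cen r} = Nat.card ↥(k.V ⊓ H9.Cen r) := rfl
  obtain ⟨w, hw, w3, wr⟩ := L23.exists_fixed (p := 5) (q := 3) (V := k.V) h.ord
    (fun v hv => k.conj_mem_V hr hv) (by rw [hv]; decide) fun j m e1 e2 e3 => by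
      rw [hv] at e1
      have e4 : j < 2 := by
        by_contra e4
        have : 3 ^ 2 ∣ 12 := e1 ▸ (pow_dvd_pow 3 (by omega : 2 ≤ j)).mul_right m
        omega
      interval_cases j <;> omega
  have h3 : 3 ∣ Nat.card ↥(k.V ⊓ H9.Cen r) := w3 ▸ orderOf_dvd_natCard (k.V ⊓ H9.Cen r)
    ⟨hw, H9.mem_Cen.2 (mem_Cx.1 wr).symm⟩
  have h4 : Nat.card ↥(k.V ⊓ H9.Cen r) ∣ 12 := hv ▸ card_dvd_of_le inf_le_left
  have h5 : Nat.card ↥(k.V ⊓ H9.Cen r) = 12 := by
    rw [h2, show Nat.card {g // g ∈ k.V} = 12 from hv] at h1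
    have := Nat.le_of_dvd (by norm_num) h4
    unfold Nat.ModEq at h1
    omega
  have h6 : k.V ⊓ H9.Cen r = k.V := eq_of_le_of_card_ge inf_le_left (by rw [h5, hv])
  intro v hv'
  refine h.mem_V'.2 ⟨mem_Cx.2 (H9.mem_Cen.1 (h6.ge hv').2).symm, fun e => ?_⟩
  have := e.trans (orderOf_dvd_natCard k.V hv')
  rw [hv] at this
  omega

theorem dvd24 (k : DefOne 11 y) (he : Nat.card k.H = 10) (hv : Nat.card k.V = 12)
    (h : DefOne 5 r) (hr : r ∈ Nx y) : 24 ∣ Nat.card h.V := by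
  obtain ⟨n, n1, n2⟩ := card_eq_mul_Nx h (K := Nx y) hr
  rw [k.card_Nx, k.card_Cx, he, hv] at n2
  have a : Nx r ⊓ Nx y ≤ Cx r := fun g hg => by
    have e := h.nu_spec ⟨g, hg.1⟩
    have m : g * r * g⁻¹ * r⁻¹ ∈ Cx y := by
      have := (k.nu_eq_one_iff (⟨g, hg.2⟩ * ⟨r, hr⟩ * ⟨g, hg.2⟩⁻¹ * ⟨r, hr⟩⁻¹)).1 (by
        simp only [map_mul, map_inv]; rw [mul_right_comm _ _ (k.nu _)⁻¹]; simp)
      simpa using this
    have z : (g * r * g⁻¹ * r⁻¹) ^ 5 = 1 := by
      have c : Commute (g * r * g⁻¹) r⁻¹ := by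
        rw [show g * r * g⁻¹ = _ from e]
        exact ((Commute.refl r).pow_left _).inv_right
      rw [c.mul_pow, conj_pow, inv_pow, h.pow_p]; simp
    have := not_Cx k hv m z
    rw [mul_inv_eq_one, mul_inv_eq_iff_eq_mul] at this
    exact mem_Cx.2 this
  have b : 12 ∣ Nat.card ↥(Nx r ⊓ Nx y) := hv ▸ card_dvd_of_le (le_inf
    ((V_le k hv h hr).trans (h.V_le.trans Cx_le_Nx)) (k.V_le.trans Cx_le_Nx))
  have c : 5 ∣ Nat.card ↥(Nx r ⊓ Nx y) := h.ord ▸ orderOf_dvd_natCard (Nx r ⊓ Nx y)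
    ⟨Cx_le_Nx self_mem_Cx, hr⟩
  have d := card_dvd_of_le a
  rw [h.card_Cx] at d
  obtain ⟨m, hm⟩ : 60 ∣ Nat.card ↥(Nx r ⊓ Nx y) := by omega
  rw [hm] at n2 d
  have e : n * m = 22 := by nlinarith
  have f : n ≤ 22 := Nat.le_of_dvd (by norm_num) ⟨m, e.symm⟩
  have g : 2 ∣ m := by interval_cases n <;> omega
  obtain ⟨m, rfl⟩ := g
  have := (Dvd.intro m (by ring) : 5 * 24 ∣ 60 * (2 * m)).trans d
  omega

/-- no character of degree 24 in the principal 5-block -/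
theorem no24 (L : Lx x) (k : DefOne 11 y) (he : Nat.card k.H = 10) (hv : Nat.card k.V = 12)
    (h : DefOne 5 r) (hr : r ∈ Nx y) (F : Full k 10) {χ : IrrCharacter G} (hd : deg χ = 24)
    (hχ : ∀ i : ZMod 5, i ≠ 0 → ∀ v ∈ h.V, χ.1 (xp r i * v) = -1) : False := by
  classical
  have h1 : χ ≠ one1 G := ne_of_deg (by rw [deg_one1]; omega)
  obtain ⟨-, t1, t2, t3⟩ := L.xt h1
  obtain ⟨a, a1, a2, a3⟩ := exists_int_val k he χ
  have a4 := L.norm_le χ (a := 1) (m := 2) (t3 1 (by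
    simp only [List.mem_cons, List.not_mem_nil, or_false] at t1; omega)) (by rw [hd]; norm_num)
    k.pow_p k.ne_one
  rw [a2, Complex.norm_intCast] at a4
  have a5 : |a| ≤ 2 := by exact_mod_cast a4
  obtain rfl : a = 2 := by rw [abs_le] at a5; push_cast at a3; omega
  let r' : Nx y := ⟨r, hr⟩
  have h' : DefOne 5 r' := ⟨by rw [← orderOf_coe]; exact h.ord,
    by rw [k.card_Nx, k.card_Cx, he, hv]; decide⟩
  have φ := fixedChar (irr_isCharacter χ.2) (zpowers y)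
  have key : ∀ v (hv' : v ∈ k.V), ∑ d : zpowers r', (Nat.card (zpowers y) : ℂ)⁻¹ *
      ∑ e : zpowers y, χ.1 (((⟨v, Cx_le_Nx (k.V_le hv')⟩ : Nx y) * d : Nx y) * e) =
      11⁻¹ * ∑ i : ZMod 11, χ.1 (v * xp y i) - 4 := fun v hv' => by
    rw [sum_zpowers h' (fun d => (Nat.card (zpowers y) : ℂ)⁻¹ *
      ∑ e : zpowers y, χ.1 (((⟨v, Cx_le_Nx (k.V_le hv')⟩ : Nx y) * d : Nx y) * e)),
      sum_xp_const (a := -1) fun i hi => ?_, xp_zero, mul_one, k.card_zpowers,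
      sum_zpowers k fun e => χ.1 (v * e)]
    · push_cast; ring
    have e : ((⟨v, Cx_le_Nx (k.V_le hv')⟩ : Nx y) * xp r' i : Nx y) = v * xp r i := rfl
    rw [sum_coset k χ (SetLike.coe_mem _) fun c => ?_, e, k.card_zpowers,
      ← (h.commute_xp_V i (V_le k hv h hr hv')).eq, hχ i hi v (V_le k hv h hr hv')]
    · push_cast; ring
    rw [e, mul_mem_cancel_left (k.V_le hv')] at c
    exact hi (h.xp_eq_one_iff.1 (not_Cx k hv c
      (orderOf_dvd_iff_pow_eq_one.1 (h.orderOf_xp hi).dvd)))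
  have k2 : ∀ v ∈ k.V, ∑ i : ZMod 11, χ.1 (v * xp y i) = 44 := fun v hv' => by
    have := norm_sum_coset_le φ (zpowers r') (n := ⟨v, Cx_le_Nx (k.V_le hv')⟩)
      (H9.mem_normalizer_of_conj_mem fun d hd => by
        obtain ⟨i, rfl⟩ := h'.mem_zpowers_iff.1 hd
        rw [show (⟨v, Cx_le_Nx (k.V_le hv')⟩ : Nx y) * xp r' i =
          xp r' i * ⟨v, Cx_le_Nx (k.V_le hv')⟩ from
          Subtype.ext (h.commute_xp_V i (V_le k hv h hr hv')).eq.symm, mul_inv_cancel_right]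
        exact hd)
    have k1 := key 1 (one_mem _)
    simp only [one_mul] at k1
    rw [sum_xp_const a1, xp_zero, deg_eq, hd] at k1
    rw [key v hv', show ∑ d : zpowers r', (Nat.card (zpowers y) : ℂ)⁻¹ *
      ∑ e : zpowers y, χ.1 ((d : Nx y) * e) = 0 from
        Eq.trans (by simp only [show (⟨1, Cx_le_Nx (k.V_le (one_mem _))⟩ : Nx y) = 1 from rfl,
          one_mul]) (k1.trans (by norm_num)), norm_zero, norm_le_zero_iff] at this
    linear_combination 11 * this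
  have k3 : ∑ v : k.V, χ.1 v = 12 * 44 := by
    have s := Finset.sum_congr (s₁ := Finset.univ) rfl fun (v : k.V) _ => k2 v v.2
    rw [Finset.sum_comm, sum_xp_const (a := 0) fun i hi => ?_, Finset.sum_const, Finset.card_univ,
      ← Nat.card_eq_fintype_card, hv] at s
    · simpa [xp_zero] using s
    rw [← F.other χ h1 (fun j c => ?_) i hi]
    · exact Finset.sum_congr rfl fun v _ => by rw [(k.commute_xp_V i v.2).eq]
    have := F.mod j
    rw [c, hd] at this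
    rcases F.s_eq j with c | c <;> rw [c] at this <;> omega
  have k4 : ‖∑ v : k.V, χ.1 v‖ ≤ 12 * 24 := by
    refine (norm_sum_le _ _).trans ((Finset.sum_le_card_nsmul _ _ 24 fun v _ => ?_).trans ?_)
    · have := char_norm_le (irr_isCharacter χ.2) v
      rwa [deg_eq, hd, Complex.norm_natCast, Nat.cast_ofNat] at this
    · rw [Finset.card_univ, ← Nat.card_eq_fintype_card, hv]; norm_num
  rw [k3] at k4
  norm_num at k4

end MQ.Ld
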