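import Cfsg.Agent.MQ.Ld0
import Cfsg.Agent.MQ.Ld1

/-! Simple groups of order 244823040: the case `e = 10`, `|V| = 12` at the prime 11. -/

set_option autoImplicit false
set_option linter.unusedSectionVars false

namespace MQ.Ld
open Cfsg H8 H2 Subgroup MQ.Lb

variable {G : Type*} [Group G] [Fintype G] {x y r : G}

theorem full_x (L : Lx x) {p : ℕ} [Fact p.Prime] {z : G} {h : DefOne p z} {n : ℕ} (T : Full h n)
    (hp : p ≠ 23) : 2 + ∑ j, T.s j * tr x (T.c j) = 0 := by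
  have o : ¬ p ∣ orderOf x := fun e => hp ((Nat.prime_dvd_prime_iff_eq Fact.out Fact.out).1
    (L.hx.ord ▸ e))
  have a := T.lin x o
  have b := T.lin x⁻¹ (by rwa [orderOf_inv])
  have : (2 : ℂ) + ∑ j, T.s j * (tr x (T.c j) : ℂ) = 0 := by
    simp only [← (L.xt (T.ne_one _)).1, mul_add, Finset.sum_add_distrib]
    linear_combination a + b
  exact_mod_cast this

theorem mu_lin {p n : ℕ} [Fact p.Prime] (k : DefOne p y) (c : Fin n → IrrCharacter G)
    (s : Fin n → ℤ) (E : IrrCharacter G) (s0 : ℤ)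
    (h : ∀ v ∈ k.V, 1 + ∑ j, s j * (c j).1 (y * v) + s0 * E.1 (y * v) = 0) :
    1 + ∑ j, s j * mu k (c j) + s0 * mu k E = 0 := by
  classical
  have a : ∑ v : k.V, (1 + ∑ j, s j * (c j).1 (y * v) + s0 * E.1 (y * v)) = 0 :=
    Finset.sum_eq_zero fun v _ => h v v.2
  rw [Finset.sum_add_distrib, Finset.sum_add_distrib, Finset.sum_comm, Finset.sum_const,
    Finset.card_univ, ← Nat.card_eq_fintype_card, nsmul_eq_mul, mul_one] at a
  have c := card_ne_zero_complex (G := k.V)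
  simp only [mu, ← mul_div_assoc, ← Finset.sum_div, Finset.mul_sum]
  field_simp
  linear_combination a

theorem main [IsSimpleGroup G] (L : Lx x) (k : DefOne 11 y) (he : Nat.card k.H = 10)
    (hv : Nat.card k.V = 12) : False := by
  have nc := L23.nc L.hN
  have pf := L23.perf L.hN
  obtain ⟨⟨r, hr⟩, o5⟩ := exists_prime_orderOf_dvd_card' (G := Nx y) 5 (by
    rw [k.card_Nx, he]; exact Dvd.dvd.mul_left (by norm_num) _)
  rw [← orderOf_coe] at o5
  have h : DefOne 5 r := ⟨o5, by rw [L.hN]; norm_num⟩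
  obtain ⟨F⟩ := exists_full k (n := 10) rfl he
  obtain ⟨u, hu, o2⟩ := exists_mem_V k 2 (by rw [hv]; decide)
  have hu5 := V_le k hv h hr hu
  have u1 : u ≠ 1 := by rintro rfl; simp at o2
  choose a a1 a2 using fun χ => inv_val pf χ (z := u) (o2 ▸ pow_orderOf_eq_one u)
  have a3 := fun χ (h1 : χ ≠ one1 G) => abs_lt.1 (irr_int_abs_lt nc h1 u1 (a1 χ))
  have a5 := fun χ e => dvd_val_of_defect h χ e hu5 (a1 χ)
  have a11 := fun χ e => dvd_val_of_defect k χ e hu (a1 χ)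
  have aF : ∀ j, (11 : ℤ) ∣ a (F.c j) - deg (F.c j) := fun j =>
    let ⟨_, b1, b2⟩ := F.res j
    L23.mod_of_restrict _ b1 b2 hu (a1 _)
  have i11 : (Cx y).index = 1854720 := by
    have := (Cx y).card_mul_index
    rw [k.card_Cx, hv, L.hN] at this; omega
  have kV : k.V ≠ ⊥ := fun e => u1 (by rwa [e, mem_bot] at hu)
  have hV : h.V ≠ ⊥ := fun e => u1 (by rwa [e, mem_bot] at hu5)
  -- the character of degree 3840
  obtain ⟨j1, d1⟩ : ∃ j, deg (F.c j) = 3840 := by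
    have s := full_x L F (by norm_num)
    obtain ⟨j, hj⟩ : ∃ j, F.s j * tr x (F.c j) < 0 := by
      by_contra c
      have := Finset.sum_nonneg (s := Finset.univ) fun j _ => not_lt.1 fun e => c ⟨j, e⟩
      omega
    have b := i11 ▸ F.dvd j
    refine ⟨j, (chk11 _ (L23.mem_dv (b.trans (by norm_num))) (Nat.mod_eq_zero_of_dvd b)
      (F.large pf kV j) (L.hN ▸ deg_sq_le _) _ (L.xt (F.ne_one j)).2.1 (L.xt (F.ne_one j)).2.2.1 _
      (by simpa using F.s_eq j) (Int.emod_eq_zero_of_dvd (F.mod j)) hj).resolve_left fun e => ?_⟩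
    have b1 := a2 (F.c j)
    have b2 := a3 _ (F.ne_one j)
    have b3 := a5 (F.c j) (by omega)
    have b4 := aF j
    omega
  -- the means over `y V`
  have hm : ∀ χ : IrrCharacter G, ∃ m : ℤ, χ ≠ one1 G → mu k χ = m ∧ m ∈ [(-1 : ℤ), 0, 1] ∧
      (m = 0 ∨ (1854720 % deg χ = 0 ∧ (m * deg χ - 1) % 11 = 0)) ∧
      (m ≠ 0 → (11 : ℤ) ∣ a χ - deg χ) := fun χ => by
    by_cases c : ∃ j, F.c j = χ
    · obtain ⟨j, rfl⟩ := c
      exact ⟨F.s j, fun _ => ⟨mu_const k fun v => F.val_mul j,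
        by rcases F.s_eq j with e | e <;> simp [e], Or.inr
        ⟨Nat.mod_eq_zero_of_dvd (i11 ▸ F.dvd j), Int.emod_eq_zero_of_dvd (F.mod j)⟩, fun _ => aF j⟩⟩
    · exact ⟨0, fun h1 => ⟨by simpa using Full.mu_other F h1 fun j e => c ⟨j, e⟩, by simp,
        Or.inl rfl, fun e => absurd rfl e⟩⟩
  choose m hm using hm
  obtain ⟨b1, b2, -, b4, b5⟩ := loc_num nc h (m := 48964608) L.hN
  have hi : (Cx r).index ∣ 2040192 := by
    obtain ⟨w, hw⟩ := dvd24 k he hv h hr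
    refine ⟨w, Nat.eq_of_mul_eq_mul_left (by norm_num : 0 < 24) ?_⟩
    rw [h.index_Cx, show 24 * 2040192 = 48964608 from rfl, ← b1, hw]; ring
  have key : ∀ χ : IrrCharacter G, χ ≠ one1 G → deg χ ∣ (Cx r).index → 2 * 5 < deg χ →
      ∀ s : ℤ, s = 1 ∨ s = -1 → _ := fun χ c1 c2 c3 s hs =>
    chk1 _ (L23.mem_dv ((c2.trans hi).trans (by norm_num)))
      (Nat.mod_eq_zero_of_dvd (c2.trans hi)) c3 (L.hN ▸ deg_sq_le χ) _ (L.xt c1).2.1
      (L.xt c1).2.2.1 _ (hm χ c1).2.1 (hm χ c1).2.2.1 s (by simpa using hs)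
  have key' : ∀ χ : IrrCharacter G, χ ≠ one1 G → deg χ ∣ (Cx r).index → 2 * 5 < deg χ →
      ∀ s : ℤ, s = 1 ∨ s = -1 → ((5 : ℕ) : ℤ) ∣ s * deg χ - 1 →
      (∀ i : ZMod 5, i ≠ 0 → ∀ v ∈ h.V, χ.1 (xp r i * v) = s) →
      (s * deg χ, s * tr x χ, s * m χ) ∈ N5 := fun χ c1 c2 c3 s hs c4 c5 => by
    rcases (key χ c1 c2 c3 s hs).1 (Int.emod_eq_zero_of_dvd c4) with e | e | e
    · have f1 := a2 χ
      have f2 := a3 χ c1
      have f3 := a11 χ (by omega)
      omega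
    · obtain rfl : s = -1 := by rcases hs with rfl | rfl <;> omega
      exact (no24 L k he hv h hr F e (by simpa using c5)).elim
    · exact e
  have reg : ∀ v ∈ k.V, ¬ 5 ∣ orderOf (y * v) := fun v hv' e => by
    have := e.trans (orderOf_dvd_natCard (Cx y) (mul_mem self_mem_Cx (k.V_le hv')))
    rw [k.card_Cx, hv] at this
    omega
  have e5 : Nat.card h.H = 2 ∨ Nat.card h.H = 4 := by
    have := Nat.le_of_dvd (by norm_num) b4
    have : Nat.card h.H ≠ 3 := fun e => by rw [e] at b4; omega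
    omega
  rcases e5 with e5 | e5
  · obtain ⟨T⟩ := exists_gen h (n := 1) e5
    obtain ⟨l1, l2⟩ := T.large pf hV
    have s1 := T.sum_deg
    have s2 := L.gen_x T (by norm_num)
    have s3 := mu_lin k T.c T.s T.E T.s0 fun v hv' => T.lin _ (reg v hv')
    rw [Fin.sum_univ_one] at s1 s2 s3
    rw [(hm _ (T.ne_one 0)).1, (hm _ (T.X1 _ T.E_mem)).1] at s3
    have m0 := T.mod0
    exact chk2 _ (key' _ (T.ne_one 0) (T.dvd 0) (l1 0) _ (T.s_eq 0) (T.mod 0) (T.val 0)) _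
      ((key _ (T.X1 _ T.E_mem) T.dvd0 l2 _ T.s0_eq).2 (by push_cast at m0; omega)) s1 s2
      (by exact_mod_cast s3)
  obtain ⟨T⟩ := exists_full h (n := 4) rfl e5
  have s1 := T.sum_deg
  have s2 := full_x L T (by norm_num)
  have s3 := mu_lin k T.c T.s (one1 G) 0 fun v hv' => by simpa using T.lin _ (reg v hv')
  simp only [(hm _ (T.ne_one _)).1, Int.cast_zero, zero_mul, add_zero] at s3
  have s3' : 1 + ∑ j, T.s j * m (T.c j) = 0 := by exact_mod_cast s3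
  rw [Fin.sum_univ_four] at s1 s2 s3'
  have n5 := fun j => key' _ (T.ne_one j) (T.dvd j) (T.large pf hV j) _ (T.s_eq j) (T.mod j)
    (T.val j)
  have dd := fun j => sgn_dvd (T.s_eq j) (T.dvd j)
  obtain ⟨q0, q3, q4⟩ := (chk4 _ (n5 0) _ (n5 1) (T.mono (by decide)) _ (n5 2)
    (T.mono (by decide)) _ (n5 3) s1 (T.mono (by decide)) s2 s3').resolve_right fun c =>
      chkl _ (L23.mem_dv (hi.trans (by norm_num))) (Nat.mod_eq_zero_of_dvd hi)
        (by rw [h.index_Cx, e5, Nat.mul_mod, b2]) _ c (dd 0) (dd 1) (dd 2) (dd 3)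
  have d3 : deg (T.c 0) = 5544 := (deg_of_q (T.s_eq 0) q0).1
  have d2 : deg (T.c 3) = 5796 := (deg_of_q (T.s_eq 3) q3).1
  have aT : ∀ j, (5 : ℤ) ∣ a (T.c j) - deg (T.c j) := fun j =>
    let ⟨_, b1, b2⟩ := T.res j
    L23.mod_of_restrict _ b1 b2 hu5 (a1 _)
  obtain ⟨i, hi1, hi2⟩ : ∃ i : ℕ, i < 36 ∧ a (F.c j1) = 220 * i - 3860 := by
    have f1 := a2 (F.c j1)
    have f2 := a3 _ (F.ne_one j1)
    have f3 := a5 (F.c j1) (by omega)
    have f4 := aF j1
    exact ⟨((a (F.c j1) + 3860) / 220).toNat, by omega, by omega⟩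
  obtain ⟨j, hj1, hj2⟩ : ∃ i : ℕ, i < 54 ∧ a (T.c 3) = 220 * i - 5864 := by
    have f1 := a2 (T.c 3)
    have f2 := a3 _ (T.ne_one 3)
    have f3 := aT 3
    have f4 := (hm _ (T.ne_one 3)).2.2.2 fun e => by simp [e] at q4
    exact ⟨((a (T.c 3) + 5864) / 220).toNat, by omega, by omega⟩
  obtain ⟨l, hl1, hl2⟩ : ∃ i : ℕ, i < 54 ∧ a (T.c 0) = 220 * i - 5676 := by
    have f1 := a2 (T.c 0)
    have f2 := a3 _ (T.ne_one 0)
    have f3 := aT 0
    have f4 := a11 (T.c 0) (by omega)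
    exact ⟨((a (T.c 0) + 5676) / 220).toNat, by omega, by omega⟩
  have c0 := (Cx u).card_mul_index
  rw [L.hN] at c0
  have c1 : (Cx u).index = 244823040 / Nat.card (Cx u) := by
    rw [← c0, Nat.mul_div_cancel_left _ Nat.card_pos]
  have c2 : 2 ∣ Nat.card (Cx u) := o2 ▸ orderOf_dvd_natCard (Cx u) self_mem_Cx
  have c5 : 5 ∣ Nat.card (Cx u) :=
    h.ord ▸ orderOf_dvd_natCard (Cx u) (mem_Cx.2 (mem_Cx.1 (h.V_le hu5)).symm)
  have c11 : 11 ∣ Nat.card (Cx u) :=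
    k.ord ▸ orderOf_dvd_natCard (Cx u) (mem_Cx.2 (mem_Cx.1 (k.V_le hu)).symm)
  have c23 := L.hx.not_dvd_card_Cx L.vx u1 (by rw [o2]; decide)
  have g1 := irr_deg_dvd_index_mul _ (a1 (F.c j1))
  have g2 := irr_deg_dvd_index_mul _ (a1 (T.c 3))
  have g3 := irr_deg_dvd_index_mul _ (a1 (T.c 0))
  rw [c1] at g1 g2 g3
  rw [d1, hi2] at g1
  rw [d2, hj2] at g2
  rw [d3, hl2] at g3
  have sq := sq_list_le (l := [F.c j1, T.c 3, T.c 0]) (by
    simp only [List.nodup_cons, List.mem_cons, List.not_mem_nil, or_false, not_or, not_false_iff,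
      List.nodup_nil, and_true]
    exact ⟨⟨ne_of_deg (by omega), ne_of_deg (by omega)⟩, ne_of_deg (by omega)⟩) u
  simp only [List.map_cons, List.map_nil, List.sum_cons, List.sum_nil, a1, hi2, hj2, hl2,
    Complex.normSq_intCast, add_zero] at sq
  have sq' : (220 * i - 3860 : ℤ) * (220 * i - 3860) + ((220 * j - 5864) * (220 * j - 5864) +
      (220 * l - 5676) * (220 * l - 5676)) ≤ (Nat.card (Cx u) : ℤ) := by exact_mod_cast sq
  have p1 := mul_self_nonneg (220 * j - 5864 : ℤ)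
  have p2 := mul_self_nonneg (220 * l - 5676 : ℤ)
  have := chk3 _ (L23.mem_dv ⟨_, c0.symm⟩) (by omega) (by omega) i (List.mem_range.2 hi1)
    (Int.emod_eq_zero_of_dvd g1) (by linarith) j (List.mem_range.2 hj1)
    (Int.emod_eq_zero_of_dvd g2) l (List.mem_range.2 hl1) (Int.emod_eq_zero_of_dvd g3)
  linarith

end MQ.Ld

namespace MQ
open Cfsg H8

theorem not_e10 {G : Type*} [Group G] [Fintype G] [IsSimpleGroup G] {x y : G}
    (hN : Nat.card G = 244823040) (hx : DefOne 23 x) (vx : hx.V = ⊥) (ex : Nat.card hx.H = 11)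
    (k : DefOne 11 y) (he : Nat.card k.H = 10) : Nat.card k.V ≠ 12 :=
  fun hv => Ld.main ⟨hN, hx, vx, ex⟩ k he hv

end MQ
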