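import Cfsg.Agent.MQ.Le1
import Cfsg.Agent.MQ.Pc
import Cfsg.Agent.MQ.Lc

/-! Simple groups of order 244823040: the automizer of a Sylow 11-subgroup is not of order 5. -/

set_option autoImplicit false
set_option linter.unusedSectionVars false

namespace MQ.Le
open Cfsg H8 H2 Subgroup L23

variable {G : Type*} [Group G] [Fintype G] [IsSimpleGroup G] {p q : ℕ} [hp : Fact p.Prime]
  [hq : Fact q.Prime] {x y w u : G}

theorem res_mod {h : DefOne p y} {n : ℕ} (T : Gen h n) {χ : IrrCharacter G}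
    (hχ : (∃ j, T.c j = χ) ∨ χ ∈ T.X) {v : G} (hv : v ∈ h.V) {a : ℤ} (ha : χ.1 v = a) :
    (p : ℤ) ∣ a - deg χ ∧ deg χ ∣ (Cx y).index := by
  rcases hχ with ⟨j, rfl⟩ | h1
  · obtain ⟨β, h2, h3⟩ := T.res j
    exact ⟨mod_of_restrict _ h2 h3 hv ha, T.dvd j⟩
  · obtain ⟨β, h2, h3⟩ := T.resE
    rw [T.deg_X h1]
    exact ⟨mod_of_restrict _ h2 h3 hv ((T.reg _ h1 v (h.mem_V'.1 hv).2).symm.trans ha), T.dvd0⟩

theorem not_dvd_index (l : DefOne q w) : ¬ q ∣ (Cx w).index := fun h => l.not_sq (by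
  rw [← (Cx w).card_mul_index, l.card_Cx, sq]
  exact mul_dvd_mul (dvd_mul_right _ _) h)

/-- Two principal blocks have a common non-trivial character. -/
theorem cross {h : DefOne p y} {n m : ℕ} (T : Gen h n) {l : DefOne q w} (T' : Gen l m)
    (hr : ∀ g ∈ Cx w, ¬ p ∣ orderOf g) : (∃ j, (∃ i, T'.c i = T.c j) ∨ T.c j ∈ T'.X) ∨
      (∃ i, T'.c i = T.E) ∨ T.E ∈ T'.X := by
  classical
  by_contra h1
  simp only [not_or, not_exists] at h1
  have h2 : ∑ v : l.V, (1 + ∑ j, T.s j * (T.c j).1 (xp w (1 : ZMod q) * v) +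
      T.s0 * T.E.1 (xp w (1 : ZMod q) * v)) = 0 :=
    Finset.sum_eq_zero fun v _ => T.lin _ (hr _ (mul_mem (xp_mem_Cx _) (l.V_le v.2)))
  rw [Finset.sum_add_distrib, Finset.sum_add_distrib, Finset.sum_comm, ← Finset.mul_sum,
    T'.other _ (T.X1 _ T.E_mem) h1.2.1 h1.2.2 1 one_ne_zero,
    Finset.sum_eq_zero (s := Finset.univ) (f := fun j => ∑ v : l.V,
      T.s j * (T.c j).1 (xp w (1 : ZMod q) * v)) fun j _ => by
      rw [← Finset.mul_sum, T'.other _ (T.ne_one j) (h1.1 j).1 (h1.1 j).2 1 one_ne_zero, mul_zero]]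
    at h2
  simp at h2

theorem n7_false {l : DefOne 7 w} {m : ℕ} (T' : Gen l m) (hu : u ∈ l.V) {χ : IrrCharacter G}
    (hχ : (∃ i, T'.c i = χ) ∨ χ ∈ T'.X) {s a : ℤ} (hs : s = 1 ∨ s = -1) (ha : χ.1 u = a) :
    n7 (s * deg χ) (s * a) ≠ true := by
  obtain ⟨h1, h2⟩ := res_mod T' hχ hu ha
  have h3 : ¬ 7 ∣ deg χ := fun e => not_dvd_index l (e.trans h2)
  simp only [n7, ne_eq, Bool.or_eq_true, beq_iff_eq, bne_iff_ne, not_or, not_not]
  push_cast at h1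
  rcases hs with rfl | rfl <;> omega

theorem quad_zero {h : DefOne p y} (T : Gen h 4) (h2 : p ≠ 2) (nr : ¬ IsConj y y⁻¹)
    (hu : u ^ 2 = 1) (ho : ¬ p ∣ orderOf u) {a : Fin 4 → ℤ} {b : ℤ} (ha : ∀ j, (T.c j).1 u = a j)
    (hb : T.E.1 u = b) {L : ℕ} (hL : (Cx y).index ∣ L) :
    quadF L (T.q 0) (T.q 1) (T.q 2) (T.q 3) T.q0 (T.s 0 * a 0) (T.s 1 * a 1) (T.s 2 * a 2)
      (T.s 3 * a 3) (T.s0 * b) = 0 := by
  have h1 := T.prs_eq ho ho
  rw [prs_kk h h2 hu hu, kk_nonreal h nr, mul_zero, Nat.cast_zero, eq_comm, mul_eq_zero] at h1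
  have h3 := h1.resolve_left (div_ne_zero (by
    exact_mod_cast (mul_pos (mul_pos (index_Cx_pos u) (index_Cx_pos u)) Nat.card_pos).ne')
    card_ne_zero_complex)
  have h4 : ∀ (s a : ℤ) (χ : IrrCharacter G), (s = 1 ∨ s = -1) → deg χ ∣ (Cx y).index →
      ((s * a * (s * a) * (L / (s * deg χ)) : ℤ) : ℂ) = L * (s * (a * a / deg χ)) := by
    intro s a χ hs hd
    obtain ⟨m, hm⟩ := hd.trans hL
    have h5 : (deg χ : ℤ) ≠ 0 := by exact_mod_cast (deg_pos χ).ne'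
    have h6 : (deg χ : ℂ) ≠ 0 := by exact_mod_cast (deg_pos χ).ne'
    have h7 : (L : ℤ) / (s * deg χ) = s * m := by
      rw [hm]
      rcases hs with rfl | rfl <;> simp [Int.mul_ediv_cancel_left _ h5]
    rw [h7, hm]
    rcases hs with rfl | rfl <;> push_cast <;> field_simp
  simp only [ha, hb, Fin.sum_univ_four] at h3
  have : (quadF L (T.q 0) (T.q 1) (T.q 2) (T.q 3) T.q0 (T.s 0 * a 0) (T.s 1 * a 1) (T.s 2 * a 2)
      (T.s 3 * a 3) (T.s0 * b) : ℂ) = 0 := by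
    simp only [quadF, Int.cast_add, Gen.q, Gen.q0, h4 _ _ _ (T.s_eq _) (T.dvd _),
      h4 _ _ _ T.s0_eq T.dvd0, Int.cast_natCast]
    linear_combination L * h3
  exact_mod_cast this

theorem val_mem (hG : ¬ IsMulCommutative G) {χ : IrrCharacter G} (h1 : χ ≠ one1 G) {s : ℤ}
    (hs : s = 1 ∨ s = -1) (hu : u ≠ 1) {a : ℤ} (ha : χ.1 u = a) (hm : 44 ∣ a - deg χ) {K C : ℤ}
    (hK : ((Cx u).index : ℤ) ∣ K) (hC : Nat.card (Cx u) ≤ C) (hC' : C ≤ 10644480) :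
    s * deg χ ∣ K * (s * a) ∧ s * a ∈ vl K C (s * deg χ) := by
  have h2 := irr_int_abs_lt hG h1 hu ha
  have h3 := sq_list_le (l := [one1 G, χ]) (by simp [h1.symm]) u
  simp only [List.map_cons, List.map_nil, List.sum_cons, List.sum_nil, ha, Pi.one_apply, map_one,
    Complex.normSq_intCast] at h3
  have h4 : 1 + (a * a + 0) ≤ (Nat.card (Cx u) : ℤ) := by exact_mod_cast h3
  have h5 : s * deg χ ∣ K * (s * a) := by
    rw [mul_left_comm]
    exact mul_dvd_mul_left _ ((irr_deg_dvd_index_mul χ ha).trans (mul_dvd_mul_right hK _))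
  refine ⟨h5, mem_vl hC' (by rw [← mul_sub]; exact hm.mul_left _) h5 ?_ ?_⟩
  · rw [mul_mul_mul_comm, sgn_sq hs]; omega
  · rw [mul_mul_mul_comm, mul_mul_mul_comm s _ s, sgn_sq hs, one_mul, one_mul]
    nlinarith [abs_lt.1 h2]

theorem tf_eq (L : Lb.Lx x) {χ : IrrCharacter G} (h1 : χ ≠ one1 G) {s : ℤ} (hs : s = 1 ∨ s = -1) :
    tf (s * deg χ) = s * tr x χ ∧ -2 ≤ tf (s * deg χ) ∧ tf (s * deg χ) ≤ 2 := by
  obtain ⟨-, h2, h3, -⟩ := L.xt h1
  simp only [List.mem_cons, List.not_mem_nil, or_false] at h2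
  rcases hs with rfl | rfl <;> simp only [tf] <;> omega

theorem num (L : Lb.Lx x) (k : DefOne 11 y) (he : Nat.card k.H = 5) :
    Nat.card k.V ∈ [2, 24, 288, 3456] ∧ (Cx y).index * Nat.card k.V = 22256640 := by
  obtain ⟨h1, h2, -, -, -⟩ := loc_num (nc L.hN) k (m := 22256640) L.hN
  refine ⟨chkV _ (mem_dv ((h1 ▸ dvd_mul_left _ _ : _ ∣ 22256640).trans (by norm_num))) ?_ ?_
    (Lb.main L k) (Lc.not_23 L k), by rw [k.index_Cx, h1]⟩
  · have := congrArg (· % 11) h1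
    simp only [mul_assoc] at this
    rw [Nat.mul_mod, h2, one_mul, Nat.mod_mod, he] at this
    omega
  · exact Nat.mod_eq_zero_of_dvd (by rw [← h1, he, mul_assoc]; exact dvd_mul_left _ _)

theorem exists_u (L : Lb.Lx x) (k : DefOne 11 y) (he : Nat.card k.H = 5) :
    ∃ u ∈ k.V, orderOf u = 2 ∧ 110 ∣ Nat.card (Cx u) ∧ Nat.card (Cx u) ∣ 10644480 := by
  obtain ⟨h1, -⟩ := num L k he
  obtain ⟨r, hr⟩ := exists_prime_orderOf_dvd_card' (G := Nx y) 5 (by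
    rw [k.card_Nx, he]; exact dvd_mul_left _ _)
  rw [← orderOf_coe] at hr
  simp only [List.mem_cons, List.not_mem_nil, or_false] at h1
  obtain ⟨u, hu, hu2, hur⟩ := exists_fixed (V := k.V) (q := 2) hr
    (fun v hv => k.conj_mem_V r.2 hv) (by omega) fun j m e1 e2 e3 => by
      have e4 : j < 8 := by
        by_contra e4
        have : 2 ^ 8 ∣ Nat.card k.V := e1 ▸ ((pow_dvd_pow 2 (by omega : 8 ≤ j)).mul_right m)
        omega
      interval_cases j <;> omega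
  have c2 : 2 ∣ Nat.card (Cx u) := hu2 ▸ orderOf_dvd_natCard _ self_mem_Cx
  have c5 : 5 ∣ Nat.card (Cx u) := hr ▸ orderOf_dvd_natCard _ (mem_Cx.2 (mem_Cx.1 hur).symm)
  have c11 : 11 ∣ Nat.card (Cx u) :=
    k.ord ▸ orderOf_dvd_natCard _ (mem_Cx.2 (mem_Cx.1 (k.V_le hu)).symm)
  refine ⟨u, hu, hu2, by omega, ?_⟩
  have h2 := L.hx.not_dvd_card_Cx L.vx (z := u) (by rintro rfl; simp at hu2) (by rw [hu2]; decide)
  have h3 := card_subgroup_dvd_card (Cx u)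
  rw [L.hN, show 244823040 = 23 * 10644480 from rfl] at h3
  exact ((Nat.Prime.coprime_iff_not_dvd (by norm_num)).2 h2).symm.dvd_of_dvd_mul_left h3

theorem degs (L : Lb.Lx x) {k : DefOne 11 y} (he : Nat.card k.H = 5) (T : Gen k 4)
    (h45 : ∀ j, T.q j ≠ 45) : (T.q 0, T.q 1, T.q 2, T.q 3, T.q0) ∈ D5 := by
  obtain ⟨h1, h2⟩ := num L k he
  simp only [List.mem_cons, List.not_mem_nil, or_false] at h1
  have hV : k.V ≠ ⊥ := fun e => by rw [e, card_bot] at h1; omega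
  have hI : (Cx y).index ∣ 11128320 := by
    obtain ⟨m, hm⟩ : 2 ∣ Nat.card k.V := by omega
    exact ⟨m, by rw [hm] at h2; linarith⟩
  obtain ⟨l1, l2⟩ := T.large (perf L.hN) hV
  have key : ∀ (χ : IrrCharacter G) (s : ℤ), χ ≠ one1 G → (s = 1 ∨ s = -1) →
      deg χ ∣ (Cx y).index → 2 * 11 < deg χ → ((s * deg χ - 1) % 11 = 0 → s * deg χ = 45 ∨
        s * deg χ ∈ S5) ∧ ((s * deg χ + 5) % 11 = 0 → s * deg χ ∈ E5) := fun χ s a b c d =>
    chkS _ (mem_dv ((c.trans hI).trans (by norm_num))) (Nat.mod_eq_zero_of_dvd (c.trans hI)) d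
      (L.hN ▸ deg_sq_le χ) s (by simpa using b) (tf_eq L a b).2.1 (tf_eq L a b).2.2
  have h3 : ∀ j, T.q j ∈ S5 := fun j => ((key _ _ (T.ne_one j) (T.s_eq j) (T.dvd j) (l1 j)).1
    (Int.emod_eq_zero_of_dvd (T.mod j))).resolve_left (h45 j)
  have h4 : T.q0 ∈ E5 := (key _ _ (T.X1 _ T.E_mem) T.s0_eq T.dvd0 l2).2
    (Int.emod_eq_zero_of_dvd (by simpa using T.mod0))
  have h5 := T.sum_deg
  have h6 := L.gen_x T (by decide)
  simp only [← (tf_eq L (T.ne_one _) (T.s_eq _)).1, ← (tf_eq L (T.X1 _ T.E_mem) T.s0_eq).1,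
    Fin.sum_univ_four] at h5 h6
  have h7 : -1 - T.q 0 - T.q 1 - T.q 2 - T.q 3 = T.q0 := by omega
  have := chkD _ (h3 0) _ (h3 1) (T.mono (by decide)) _ (h3 2) (T.mono (by decide)) _ (h3 3)
    (T.mono (by decide)) (by rw [h7]; exact h6) (by rwa [h7])
  rwa [h7] at this

theorem main (L : Lb.Lx x) (k : DefOne 11 y) : Nat.card k.H ≠ 5 := fun he => by
  obtain ⟨T⟩ := exists_gen k (n := 4) he
  have t : T.Two := T.two he rfl (by decide)
  obtain ⟨h1, h2⟩ := num L k he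
  obtain ⟨u, hu, hu2, c1, c2⟩ := exists_u L k he
  have hu1 : u ≠ 1 := by rintro rfl; simp at hu2
  have hu0 : u ^ 2 = 1 := hu2 ▸ pow_orderOf_eq_one u
  have ho : ¬ 11 ∣ orderOf u := by rw [hu2]; decide
  choose a ha ha' using fun χ => inv_val (perf L.hN) χ hu0
  have hK := (Cx u).card_mul_index
  rw [L.hN] at hK
  have hK' : ((Cx u).index : ℤ) ∣ 2225664 := by
    obtain ⟨m, hm⟩ := c1
    exact_mod_cast (⟨m, by rw [hm] at hK; linarith⟩ : (Cx u).index ∣ 2225664)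
  have hC : (Nat.card (Cx u) : ℤ) ≤ 10644480 := by exact_mod_cast Nat.le_of_dvd (by norm_num) c2
  have m1 : ∀ χ, (∃ j, T.c j = χ) ∨ χ ∈ T.X → 44 ∣ a χ - deg χ := fun χ hχ => by
    have := (res_mod T hχ hu (ha χ)).1
    have := ha' χ
    omega
  have v1 := fun j => @val_mem G _ _ _ u (nc L.hN) _ (T.ne_one j) _ (T.s_eq j) hu1 _ (ha _)
    (m1 _ (Or.inl ⟨j, rfl⟩))
  have v0 := @val_mem G _ _ _ u (nc L.hN) _ (T.X1 _ T.E_mem) _ T.s0_eq hu1 _ (ha _)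
    (m1 _ (Or.inr T.E_mem))
  have hD := degs L he T fun j e => by
    have := (v1 j hK' hC le_rfl).2
    rw [show T.s j * deg (T.c j) = 45 from e, show vl 2225664 10644480 45 = [] by decide +kernel]
      at this
    exact List.not_mem_nil this
  have hl := T.lin' ho (fun j => ha (T.c j)) (ha T.E)
  rw [Fin.sum_univ_four] at hl
  simp only [List.mem_cons, List.not_mem_nil, or_false] at h1
  have hq := quad_zero T (by decide) t.nonreal hu0 ho (fun j => ha (T.c j)) (ha T.E)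
    (L := 11128320) (by
      obtain ⟨m, hm⟩ : 2 ∣ Nat.card k.V := by omega
      exact ⟨m, by rw [hm] at h2; linarith⟩)
  by_cases hv : Nat.card k.V = 2
  swap
  · have hI : ((Cx y).index : ℤ) ∣ 927360 := by
      obtain ⟨m, hm⟩ : 24 ∣ Nat.card k.V := by omega
      exact_mod_cast (⟨m, by rw [hm] at h2; linarith⟩ : (Cx y).index ∣ 927360)
    have d1 : ∀ j, 927360 % T.q j = 0 := fun j =>
      Int.emod_eq_zero_of_dvd ((sgn_dvd (T.s_eq j) (T.dvd j)).trans hI)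
    have := of_ok (chkA _ (chkD' _ hD (d1 0) (d1 1) (d1 2) (d1 3)
      (Int.emod_eq_zero_of_dvd ((sgn_dvd T.s0_eq T.dvd0).trans hI)))) (v1 0 hK' hC le_rfl).1
      (v1 1 hK' hC le_rfl).2 (v1 2 hK' hC le_rfl).2 (v1 3 hK' hC le_rfl).2 (v0 hK' hC le_rfl).2 hl hq
    exact Bool.false_ne_true this.1
  obtain ⟨n, hn, hn'⟩ := card_eq_mul_Nx k (K := Cx u) (mem_Cx.2 (mem_Cx.1 (k.V_le hu)).symm)
  have hle : Nx y ≤ Cx u := fun g hg => by
    have e1 := k.conj_mem_V hg hu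
    obtain ⟨z, -, hz⟩ := (Nat.card_eq_two_iff' (1 : k.V)).1 hv
    have e2 := hz ⟨u, hu⟩ fun e => hu1 (congrArg Subtype.val e)
    have e3 := hz ⟨_, e1⟩ fun e => hu1 (by simpa using congrArg Subtype.val e)
    exact mem_Cx.2 (mul_inv_eq_iff_eq_mul.1 (congrArg Subtype.val (e3.trans e2.symm)))
  rw [inf_eq_left.2 hle, k.card_Nx, k.card_Cx, hv, he] at hn'
  have hC1 := chkC n (mem_dv ((hn' ▸ dvd_mul_right _ _ : n ∣ Nat.card (Cx u)).trans
    (c2.trans (by norm_num)))) hn (Nat.mod_eq_zero_of_dvd (hn' ▸ c2))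
  rw [show n * 110 = Nat.card (Cx u) from hn'.symm] at hC1
  have hK1 : ((Cx u).index : ℤ) ∣ 244823040 / Nat.card (Cx u) := by
    rw [show (244823040 : ℤ) = Nat.card (Cx u) * (Cx u).index by exact_mod_cast hK.symm,
      Int.mul_ediv_cancel_left _ (by exact_mod_cast Nat.card_pos.ne')]
  obtain ⟨f0, f1, f2, f3, f4, f5⟩ := of_ok (chkB _ hC1 _ hD) (v1 0 hK1 le_rfl hC).1
    (v1 1 hK1 le_rfl hC).2 (v1 2 hK1 le_rfl hC).2 (v1 3 hK1 le_rfl hC).2 (v0 hK1 le_rfl hC).2 hl hq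
  obtain ⟨w, hw⟩ := exists_prime_orderOf_dvd_card' (G := Cx u) 7 (by
    rw [beq_iff_eq] at f0; omega)
  rw [← orderOf_coe] at hw
  have l : DefOne 7 (w : G) := ⟨hw, by rw [L.hN]; norm_num⟩
  obtain ⟨m, hm⟩ : ∃ m, Nat.card l.H = m + 1 := ⟨_, (Nat.succ_pred_eq_of_pos Nat.card_pos).symm⟩
  obtain ⟨T'⟩ := exists_gen l hm
  have hul : u ∈ l.V := l.mem_V'.2 ⟨mem_Cx.2 (mem_Cx.1 w.2).symm, by rw [hu2]; decide⟩
  rcases cross T T' fun g hg => La.reg_of_not_dvd k l (by decide) (by rw [hv]; decide) hg with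
    ⟨j, h⟩ | h
  · refine n7_false T' hul h (T.s_eq j) (ha _) ?_
    fin_cases j
    exacts [f1, f2, f3, f4]
  · exact n7_false T' hul h T.s0_eq (ha _) f5

end MQ.Le

namespace MQ
open Cfsg H8

theorem not_e5 {G : Type*} [Group G] [Fintype G] [IsSimpleGroup G] {x y : G} (L : Lb.Lx x)
    (k : DefOne 11 y) : Nat.card k.H ≠ 5 := Le.main L k

end MQ
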