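import Cfsg.Agent.MQ.Lc
import Cfsg.Agent.MQ.Ld
import Cfsg.Agent.MQ.Le

/-! The local data at 23 and 11 of a simple group of order 244823040. -/

set_option autoImplicit false

namespace MQ
open Cfsg H8 H2

variable {G : Type*} [Group G] [Fintype G] [IsSimpleGroup G]

theorem loc11 (hN : Nat.card G = 244823040) {y : G} (k : DefOne 11 y) :
    k.V = ⊥ ∧ Nat.card k.H = 10 := by
  obtain ⟨x, hx⟩ := exists_defOne (G := G) (p := 23) (m := 10644480) hN (by norm_num)
  obtain ⟨vx, ex⟩ := loc23 hN hx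
  exact Lc.loc_of ⟨hN, hx, vx, ex⟩ k (not_e5 ⟨hN, hx, vx, ex⟩ k) (not_e10 hN hx vx ex k)

theorem exists_loc (hN : Nat.card G = 244823040) : ∃ x y : G, Loc x y := by
  obtain ⟨x, hx⟩ := exists_defOne (G := G) (p := 23) (m := 10644480) hN (by norm_num)
  obtain ⟨y, hy⟩ := exists_defOne (G := G) (p := 11) (m := 22256640) hN (by norm_num)
  exact ⟨x, y, hN, hx, (loc23 hN hx).1, (loc23 hN hx).2, hy, (loc11 hN hy).1, (loc11 hN hy).2⟩

end MQ
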