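import Cfsg.Agent.MQ.B5c

/-! A character of degree 45 (or 22). -/

set_option autoImplicit false
set_option linter.unusedSectionVars false

namespace MQ
open Cfsg H8 H2 Subgroup
open scoped ComplexConjugate

variable {G : Type*} [Group G] [Fintype G] [IsSimpleGroup G] {x y r w : G}

/-- the mean of a linear combination of irreducible characters -/
theorem mu_sum {p : ℕ} [Fact p.Prime] (k : DefOne p w) (n : IrrCharacter G → ℂ) {f : G → ℂ}
    (hf : ∀ v ∈ k.V, f v = ∑ ψ, n ψ * ψ.1 (w * v)) [Fintype k.V] :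
    ∑ ψ, n ψ * mu k ψ = (∑ v : k.V, f v) / Nat.card k.V := by
  classical
  simp only [mu, ← mul_div_assoc, ← Finset.sum_div, Finset.mul_sum]
  rw [Finset.sum_comm]
  congr 1
  convert Finset.sum_congr rfl fun (v : k.V) _ => (hf v.1 v.2).symm

theorem Full.mu_sum {p m : ℕ} [Fact p.Prime] {k : DefOne p w} (F : Full k m)
    (n : IrrCharacter G → ℂ) : ∑ ψ, n ψ * mu k ψ = n (one1 G) + ∑ j, n (F.c j) * F.s j := by
  rw [F.sum_irr _ fun χ a b => by rw [Full.mu_other F a b, mul_zero],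
    mu_const k (χ := one1 G) (a := 1) fun _ _ => rfl, mul_one]
  simp only [mu_const k fun v => F.val_mul _]

namespace Loc
variable (L : Loc x y) (n23 : ∀ χ : IrrCharacter G, deg χ ≠ 23)
include L n23

/-- `χ * conj χ = 1 + 2024` -/
theorem sq45 {h : DefOne 5 r} (F : Full h 4) {χ : IrrCharacter G} (d : deg χ = 45) (g : G) :
    χ.1 g * conj (χ.1 g) = 1 + (F.c 1).1 g := by
  classical
  obtain ⟨⟨s0, d0⟩, ⟨s1, d1⟩, ⟨s2, s3⟩, -, -⟩ := L.b5 n23 F
  obtain ⟨n, h1, h2, h3⟩ := dec_sq χ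
  have a := mu_sum h (fun ψ => n ψ) (f := fun _ => 0) fun v hv => by
    rw [← h1, irr_eq_zero_of_dvd_deg (p := 5) (by rw [L.hN]; norm_num) χ (by rw [d]; norm_num)
      (dvd_ord h hv), zero_mul]
  rw [Full.mu_sum F, Fin.sum_univ_four, s0, s1, s2, s3, h2] at a
  have b : (1 : ℤ) + (-n (F.c 0) - n (F.c 1) + n (F.c 2) + n (F.c 3)) = 0 := by
    have : (((1 : ℤ) + (-n (F.c 0) - n (F.c 1) + n (F.c 2) + n (F.c 3)) : ℤ) : ℂ) = 0 := by
      push_cast at a ⊢; simp only [Finset.sum_const_zero, zero_div] at a; linear_combination a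
    exact_mod_cast this
  have nd : [one1 G, F.c 1, F.c 0].Nodup := by
    simp [(F.ne_one _).symm, F.inj.eq_iff]
  have c := sum_irr_split nd fun ψ => n ψ * deg ψ
  have nd' : [one1 G, F.c 1].Nodup := by simp [(F.ne_one _).symm]
  have c' := sum_irr_split nd' fun ψ => n ψ * deg ψ
  simp only [h3, d, List.map_cons, List.map_nil, List.sum_cons, List.sum_nil, h2, deg_one1, d0,
    d1] at c c'
  have e : n (F.c 1) = 1 := by omega
  have z : ∑ ψ ∈ Finset.univ.filter (· ∉ [one1 G, F.c 1]), n ψ * deg ψ = 0 := by omega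
  rw [h1, sum_irr_list nd' _ fun ψ hψ => by
    have := Finset.sum_eq_zero_iff.1 z ψ (by simpa using hψ)
    simp [(Nat.mul_eq_zero.1 this).resolve_right (deg_pos ψ).ne']]
  simp [h2, e]

/-- T4: a character of degree 45 forces `e₇ = 3` -/
theorem e3_of_45 {χ : IrrCharacter G} (d : deg χ = 45) (k : DefOne 7 w) : Nat.card k.H = 3 := by
  have v := L.v7 n23 k
  by_contra e
  have e6 : Nat.card k.H = 6 := by
    simp only [List.mem_cons, List.not_mem_nil, or_false, Prod.mk.injEq] at v; omega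
  obtain ⟨r, h⟩ := exists_defOne (G := G) (p := 5) (m := 48964608) L.hN (by decide)
  obtain ⟨F⟩ := exists_full h (n := 4) rfl (L.e5 h)
  have a := L.sq45 n23 F d w
  obtain ⟨b, -, hb, -⟩ := exists_int_val k e6 χ
  have c := (L.b5 n23 F).2.2.2.2 w k 1 (one_mem _)
  rw [mul_one] at c
  rw [hb, c, map_intCast] at a
  have : b * b = 2 := by exact_mod_cast a.trans one_add_one_eq_two
  have : b ≤ 1 ∧ -1 ≤ b := by constructor <;> nlinarith
  obtain ⟨_, _⟩ := this
  interval_cases b <;> omega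

end Loc
end MQ
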