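import Cfsg.Agent.MQ.E3b
import Cfsg.Agent.MQ.D2
import Cfsg.Agent.MQ.T4

/-! No character of degree 45: the characters of degree 3840. -/

set_option autoImplicit false
set_option linter.unusedSectionVars false

namespace MQ
open Cfsg H8 H2 Subgroup D3
open scoped ComplexConjugate

variable {G : Type*} [Group G] [Fintype G] {x y r : G} {α ξ χ χ' : IrrCharacter G}

theorem deg_sq_list {l : List (IrrCharacter G)} (hl : l.Nodup) :
    (l.map fun χ => deg χ * deg χ).sum ≤ Nat.card G := by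
  classical
  have h1 : ∑ χ : IrrCharacter G, deg χ * deg χ = Nat.card G := by
    have := sum_irr_degree_sq (G := G)
    simp only [deg_eq] at this
    exact_mod_cast this
  rw [← h1, sum_irr_split hl]
  exact Nat.le_add_right _ _

/-- the signed degrees and traces in the principal 11-block -/
def M11 : List (ℤ × ℤ) := [(-230, 0), (-252, 2), (276, 0), (-483, 0), (540, -1), (-736, 0),
  (1024, 1), (1035, 0), (-1242, 0), (1288, 0), (-2760, 0), (-3024, 1), (3312, 0), (3840, -2),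
  (4830, 0), (-5796, 0), (7360, 0), (-8832, 0), (12420, 0), (-12880, 0), (15456, 0)]

theorem mem_M11 : ∀ d ∈ DG, vlD d ≠ 0 → d ≠ 12 → d ≠ 23 → d ≠ 45 →
    (vlD d * d, vlD d * trD d) ∈ M11 := by decide +kernel

theorem M11_le : ∀ a ∈ M11, a.2 ≤ 2 := by decide
theorem M11_neg : ∀ a ∈ M11, a.2 < 0 → a.1 = 540 ∨ a.1 = 3840 := by decide

theorem vD : vlD 252 = -1 ∧ vlD 5796 = -1 ∧ vlD 3840 = 1 ∧ vlD 3312 = 1 ∧ vlD 4830 = 1 ∧
    vlD 540 = 1 ∧ trD 252 = -2 ∧ trD 5796 = 0 ∧ trD 3840 = -2 ∧ trD 3312 = 0 ∧ trD 4830 = 0 ∧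
    trD 540 = -1 := by decide

theorem chkA : ∀ a ∈ M11, ∀ b ∈ M11, ∀ c ∈ M11, 2 ≤ a.2 + b.2 + c.2 → ∀ d ∈ M11,
    a.1 + b.1 + c.1 + d.1 = -9313 → a.2 + b.2 + c.2 + d.2 ≠ 4 := by decide +kernel

theorem chkTwo : ∀ a ∈ M11, ∀ b ∈ M11, a.2 + b.2 = 0 →
    a.1 + b.1 ∉ [(-14881 : ℤ), -17917, -20953] := by decide +kernel

theorem chkB : ∀ a ∈ M11, ∀ b ∈ M11, ∀ c ∈ M11, (a.1 + b.1 + c.1 = -5497 → a.2 + b.2 + c.2 = 0 →
    [a.1, b.1, c.1].Perm [-5796, -736, 1035]) ∧ (a.1 + b.1 + c.1 = -8533 → a.2 + b.2 + c.2 = 0 →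
    [a.1, b.1, c.1].Perm [-8832, -736, 1035] ∨ -12880 ∈ [a.1, b.1, c.1]) := by decide +kernel

/-- the data of the second alternative of `d2`, with the degrees -/
structure DB (χ : IrrCharacter G) (ψ : Fin 4 → IrrCharacter G) (ε : Fin 4 → ℤ) : Prop where
  inj : Function.Injective ψ
  ne : ∀ i, ψ i ≠ χ
  sg : ∀ i, ε i = 1 ∨ ε i = -1
  reg : ∀ g, ¬ 2 ∣ orderOf g → 2 * χ.1 g = ∑ i, ε i * (ψ i).1 g
  sing : ∀ g, 2 ∣ orderOf g → 2 * χ.1 g + ∑ i, ε i * (ψ i).1 g = 0
  mem : ∀ i, ε i * deg (ψ i) ∈ [(528 : ℤ), 3312, -990, 4830]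
  two : ∃ i j, i ≠ j ∧ deg (ψ i) = deg (ψ j) ∧ (deg (ψ i) = 3312 ∨ deg (ψ i) = 4830)

theorem DB.coef {ψ : Fin 4 → IrrCharacter G} {ε : Fin 4 → ℤ} (D : DB χ ψ ε) (φ : IrrCharacter G) :
    open Classical in ((2 : ℕ) : ℂ) ^ 2 * classInner (cf 2 χ.1) φ.1 =
      ((if χ = φ then 2 else 0) + ∑ i, if ψ i = φ then ε i else 0 : ℤ) := by
  classical
  have e : (4 : ℂ) • cf 2 χ.1 = (2 : ℂ) • χ.1 + ∑ i, (ε i : ℂ) • (ψ i).1 := funext fun g => by
    simp only [Pi.add_apply, Pi.smul_apply, Finset.sum_apply, smul_eq_mul]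
    by_cases h : 2 ∣ orderOf g
    · rw [cf_sing _ h, D.sing g h, mul_zero]
    · rw [cf_reg _ h, ← D.reg g h]; ring
  have := congrArg (classInner · φ.1) e
  simp only [classInner_smul_left, classInner_add_left, Fin.sum_univ_four, irr_classInner χ.2 φ.2,
    irr_classInner (ψ _).2 φ.2, Subtype.val_inj] at this
  simp only [Fin.sum_univ_four]
  push_cast
  rw [show (2 : ℂ) ^ 2 = 4 by norm_num, this]
  simp only [mul_ite, mul_one, mul_zero]

theorem DB.disj {ψ ψ' : Fin 4 → IrrCharacter G} {ε ε' : Fin 4 → ℤ} (D : DB χ ψ ε)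
    (D' : DB χ' ψ' ε') (h : χ ≠ χ') (d : deg χ = 3840) (d' : deg χ' = 3840) (i j : Fin 4) :
    ψ i ≠ ψ' j := by
  classical
  have s := sum_sq (p := 2) D.coef D'.coef
  have n : ∀ {ψ : Fin 4 → IrrCharacter G} {ε : Fin 4 → ℤ} {χ φ : IrrCharacter G}, DB χ ψ ε →
      deg φ = 3840 → ∀ i, ψ i ≠ φ := fun D e i c => by
    have := D.mem i
    have := D.sg i
    rw [c, e] at *
    simp only [List.mem_cons, List.not_mem_nil, or_false] at *
    omega
  have sg : ∀ {ψ : Fin 4 → IrrCharacter G} {ε : Fin 4 → ℤ} {χ : IrrCharacter G}, DB χ ψ ε →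
      ∀ i, ε i = if deg (ψ i) = 990 then -1 else 1 := fun D i => by
    have h1 := D.mem i
    simp only [List.mem_cons, List.not_mem_nil, or_false] at h1
    rcases D.sg i with h2 | h2 <;> rw [h2] at h1 ⊢ <;> split_ifs <;> omega
  have cf : ∀ {ψ : Fin 4 → IrrCharacter G} {ε : Fin 4 → ℤ} {χ : IrrCharacter G}, DB χ ψ ε →
      deg χ = 3840 → ∀ φ, ∃ m : ℕ, ((if χ = φ then 2 else 0) + ∑ i, if ψ i = φ then ε i else 0 : ℤ)
        = (if deg φ = 990 then -1 else 1) * m ∧ ∀ i, ψ i = φ → 0 < m := fun {ψ ε χ} D e φ => by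
    refine ⟨(if χ = φ then 2 else 0) + ∑ i, if ψ i = φ then 1 else 0, ?_, fun i c => ?_⟩
    · push_cast
      rw [mul_add, Finset.mul_sum]
      congr 1
      · split_ifs with h1 h2 <;> first | rfl | (subst h1; omega)
      · refine Finset.sum_congr rfl fun i _ => ?_
        split_ifs with h1 h2 h2 <;> first | rfl | (subst h1; rw [sg D i]; simp [h2])
    · exact Nat.add_pos_right _ (Finset.sum_pos' (fun _ _ => Nat.zero_le _)
        ⟨i, Finset.mem_univ _, by simp [c]⟩)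
  simp only [h, n D d', if_false, Finset.sum_const_zero, add_zero, mul_zero] at s
  choose m h1 h2 using cf D d
  choose m' h1' h2' using cf D' d'
  simp only [h1, h1'] at s
  intro c
  have t := (Finset.sum_eq_zero_iff_of_nonneg fun φ _ => by
    rw [mul_mul_mul_comm]; exact mul_nonneg (mul_self_nonneg _) (by positivity)).1 s (ψ i)
      (Finset.mem_univ _)
  have := h2 _ i rfl
  have := h2' _ j c.symm
  split_ifs at t <;> simp at t <;> omega

namespace Loc
variable [IsSimpleGroup G] (L : Loc x y) (n12 : ∀ χ : IrrCharacter G, deg χ ≠ 12)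
  (n23 : ∀ χ : IrrCharacter G, deg χ ≠ 23) (n45 : ∀ χ : IrrCharacter G, deg χ ≠ 45)
include L n12 n23 n45

/-- completing a list of members of the principal 11-block -/
theorem c11 (F : Full L.hy 10) {l : List (IrrCharacter G)} (hl : l.Nodup)
    (hm : ∀ χ ∈ l, deg χ ∈ [252, 5796, 3840, 3312, 4830, 540]) : ∃ r : List (IrrCharacter G),
    r.length + l.length = 10 ∧ (l ++ r).Nodup ∧ (l ++ r).Perm (List.ofFn F.c) ∧
    (∀ χ ∈ r, (vlD (deg χ) * deg χ, vlD (deg χ) * trD (deg χ)) ∈ M11) ∧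
    1 + ((l ++ r).map fun χ => vlD (deg χ) * deg χ).sum = 0 ∧
    2 + ((l ++ r).map fun χ => vlD (deg χ) * trD (deg χ)).sum = 0 := by
  have h : ∀ d ∈ [252, 5796, 3840, 3312, 4830, 540], d ≠ 1 ∧ vlD d ≠ 0 := by decide
  obtain ⟨r, h1, h2, h3, -, h5, h6⟩ := L.b11 F hl fun χ hχ => h _ (hm χ hχ)
  refine ⟨r, h1, h2, (List.subperm_of_subset h2 fun χ hχ => List.mem_ofFn.2 (L.mem_F F (h3 χ hχ).1
    (by rw [L.vld (h3 χ hχ).1]; exact (h3 χ hχ).2.2))).perm_of_length_le (by simp; omega),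
    fun χ hχ => ?_, h5, h6⟩
  have := h3 χ (List.mem_append_right _ hχ)
  exact mem_M11 _ this.2.1 this.2.2 (n12 _) (n23 _) (n45 _)

/-- case A -/
theorem not_A (dα : deg α = 252) (dξ : deg ξ = 5796) {S : Finset (IrrCharacter G)}
    (hS : S.card = 4) (h : ∀ ψ ∈ S, deg ψ = 3840) : False := by
  classical
  obtain ⟨F⟩ := L.full
  obtain ⟨a, b, c, d, h1, h2, h3, h4, h5, h6, rfl⟩ := Finset.card_eq_four.1 hS
  simp only [Finset.mem_insert, Finset.mem_singleton, forall_eq_or_imp, forall_eq] at h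
  obtain ⟨da, db, dc, dd⟩ := h
  obtain ⟨r, r1, -, -, r4, r5, r6⟩ := L.c11 n12 n23 n45 F (l := [α, ξ, a, b, c, d])
    (by simp [ne_of_deg, *]) (by simp [*])
  match r, r1 with
  | [u, v, w, z], _ =>
    simp only [List.mem_cons, List.not_mem_nil, or_false, forall_eq_or_imp, forall_eq] at r4
    simp only [List.cons_append, List.nil_append, List.map_cons, List.map_nil, List.sum_cons,
      List.sum_nil, dα, dξ, da, db, dc, dd, vD] at r5 r6
    have := M11_le _ r4.2.2.2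
    exact chkA _ r4.1 _ r4.2.1 _ r4.2.2.1 (by omega) _ r4.2.2.2 (by omega) (by omega)

/-- two characters of degree 3840 -/
theorem not_two (dα : deg α = 252) (dξ : deg ξ = 5796) {ψ ψ' : Fin 4 → IrrCharacter G}
    {ε ε' : Fin 4 → ℤ} (D : DB χ ψ ε) (D' : DB χ' ψ' ε') (h : χ ≠ χ') (d : deg χ = 3840)
    (d' : deg χ' = 3840) : False := by
  obtain ⟨F⟩ := L.full
  obtain ⟨i, j, ij, e, c⟩ := D.two
  obtain ⟨i', j', ij', e', c'⟩ := D'.two
  have s := D.disj D' h d d'
  have := D.inj.ne ij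
  have := D'.inj.ne ij'
  rcases c with c | c <;> rcases c' with c' | c' <;> rw [c] at e <;> rw [c'] at e' <;>
  replace e := e.symm <;> replace e' := e'.symm <;>
  obtain ⟨r, r1, -, -, r4, r5, r6⟩ := L.c11 n12 n23 n45 F
    (l := [α, ξ, χ, χ', ψ i, ψ j, ψ' i', ψ' j']) (by simp [ne_of_deg, *]) (by simp [*]) <;>
  match r, r1 with
  | [u, v], _ =>
    simp only [List.mem_cons, List.not_mem_nil, or_false, forall_eq_or_imp, forall_eq] at r4
    simp only [List.cons_append, List.nil_append, List.map_cons, List.map_nil, List.sum_cons,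
      List.sum_nil, dα, dξ, d, d', c, c', e, e', vD] at r5 r6
    exact chkTwo _ r4.1 _ r4.2 (by omega) (by simp only [List.mem_cons]; omega)

/-- a unique character of degree 3840 forces the exceptional degree 540 -/
theorem ex540 (dα : deg α = 252) (d : deg χ = 3840) (u : ∀ φ : IrrCharacter G, deg φ = 3840 → φ = χ) :
    ∃ θ θ' : IrrCharacter G, θ ≠ θ' ∧ deg θ = 540 ∧ deg θ' = 540 := by
  obtain ⟨F⟩ := L.full
  have : ∃ θ : IrrCharacter G, deg θ = 540 := by
    by_contra! c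
    obtain ⟨r, -, r2, -, r4, -, r6⟩ := L.c11 n12 n23 n45 F (l := [α, χ])
      (by simp [ne_of_deg, *]) (by simp [*])
    have : 0 ≤ (r.map fun χ => vlD (deg χ) * trD (deg χ)).sum := List.sum_nonneg fun a ha => by
      obtain ⟨φ, h1, rfl⟩ := List.mem_map.1 ha
      by_contra h2
      have h3 := M11_neg _ (r4 φ h1) (not_le.1 h2)
      have h4 : vlD (deg φ) = 1 ∨ vlD (deg φ) = -1 ∨ vlD (deg φ) = 0 := by
        unfold vlD; split_ifs <;> simp
      have h5 : φ ≠ χ := by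
        rintro rfl
        exact (List.nodup_append.1 r2).2.2 φ (by simp) φ h1 rfl
      have := c φ
      have := mt (u φ) h5
      rcases h4 with h4 | h4 | h4 <;> rw [h4] at h3 <;> omega
    simp only [List.cons_append, List.nil_append, List.map_cons, List.sum_cons, dα, d, vD] at r6
    omega
  obtain ⟨θ, hθ⟩ := this
  obtain ⟨T, t⟩ := L.gen
  have h1 : θ ≠ one1 G := ne_of_deg (by simp [hθ, deg_one1])
  have h2 := T.deg_X (L.mem_X (T := T) (Or.inr ((L.trd h1).trans (by rw [hθ]; rfl))))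
  refine ⟨T.E, cc T.E, fun e => t.ne ?_, by omega, by rw [deg_cc]; omega⟩
  rw [← cc_apply, ← e]

/-- cases B1 and B3 -/
theorem list_a (D3 : D3S G) (dα : deg α = 252) {ψ : Fin 4 → IrrCharacter G} {ε : Fin 4 → ℤ}
    (D : DB χ ψ ε) (d : deg χ = 3840) (u : ∀ φ : IrrCharacter G, deg φ = 3840 → φ = χ)
    (dξ : deg ξ = 5796) (F : Full L.hy 10) : F.c 9 = χ ∧ ∀ j, F.s j * deg (F.c j) =
      ![-5796, -5796, -736, -252, 540, 540, 1035, 3312, 3312, 3840] j := by
  obtain ⟨θ, θ', t, dθ, dθ'⟩ := L.ex540 n12 n23 n45 dα d u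
  obtain ⟨i, j, ij, e, c⟩ := D.two
  have := D.inj.ne ij
  have s : ∀ j, F.s j = vlD (deg (F.c j)) := fun j => by rw [← L.vld (F.ne_one j), L.vl_c]
  have so : ∀ {g : Fin 10 → ℤ} {l : List ℤ}, Monotone g → (List.ofFn g).Perm l →
      l.Perm (List.ofFn ((fun χ => vlD (deg χ) * deg χ) ∘ F.c)) → ∀ j, F.s j * deg (F.c j) = g j :=
    fun h1 h2 h3 j => by
      have h4 : ((fun χ => vlD (deg χ) * deg χ) ∘ F.c) = fun j => F.s j * deg (F.c j) :=
        funext fun j => by rw [s]; rfl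
      rw [h4] at h3
      exact congrFun (List.ofFn_injective (List.Perm.eq_of_sortedLE F.mono.sortedLE_ofFn
        h1.sortedLE_ofFn (h2.trans h3).symm)) j
  have mem : ∀ φ : IrrCharacter G, deg φ ∈ [3840, 3312, 1035] → ∃ j, F.c j = φ ∧
      F.s j * deg (F.c j) = deg φ := fun φ h => by
    have h0 : ∀ n ∈ [3840, 3312, 1035], n ≠ 1 ∧ vlD n = 1 := by decide
    have h1 : φ ≠ one1 G := ne_of_deg (by rw [deg_one1]; exact (h0 _ h).1)
    obtain ⟨j, rfl⟩ := L.mem_F F h1 (by rw [L.vld h1, (h0 _ h).2]; decide)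
    exact ⟨j, rfl, by rw [s, (h0 _ h).2, one_mul]⟩
  rcases c with c | c <;> rw [c] at e <;> replace e := e.symm <;>
  obtain ⟨r, r1, r2, r3, r4, r5, r6⟩ := L.c11 n12 n23 n45 F
    (l := [α, ξ, χ, θ, θ', ψ i, ψ j]) (by simp [ne_of_deg, *]) (by simp [*]) <;>
  obtain ⟨a, b, c', rfl⟩ := List.length_eq_three.1 (show r.length = 3 by simpa using r1) <;>
  simp only [List.mem_cons, List.not_mem_nil, or_false, forall_eq_or_imp, forall_eq] at r4 <;>
  have P := r3.map fun χ => vlD (deg χ) * deg χ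
  all_goals
    simp only [List.cons_append, List.nil_append, List.map_cons, List.map_nil, List.sum_cons,
      List.sum_nil, dα, dξ, d, dθ, dθ', c, e, vD, List.map_ofFn] at r5 r6 P
    have k := chkB _ r4.1 _ r4.2.1 _ r4.2.2
  · have h := so (g := ![-5796, -5796, -736, -252, 540, 540, 1035, 3312, 3312, 3840]) (by decide)
      (.trans (by decide) ((k.1 (by omega) (by omega)).symm.append_left
        [-252, -5796, 3840, 540, 540, 3312, 3312])) (by simpa using P)
    refine ⟨u _ ?_, h⟩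
    have := h 9
    rcases F.s_eq 9 with e | e <;> rw [e] at this <;> simp at this <;> omega
  exfalso
  rcases k.2 (by omega) (by omega) with k | k
  · have h := so (g := ![-8832, -5796, -736, -252, 540, 540, 1035, 3840, 4830, 4830]) (by decide)
      (.trans (by decide) (k.symm.append_left [-252, -5796, 3840, 540, 540, 4830, 4830]))
      (by simpa using P)
    have d6 : deg (F.c 6) = 1035 := by
      have := h 6
      rcases F.s_eq 6 with e | e <;> rw [e] at this <;> simp at this <;> omega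
    have tr : ∀ t ∈ TR, (t.2.2 = 1035 → t.1 = 45 ∨ t.2.1 = 45) ∧ (t.2.1 = 1035 → t.2.2 = 3312) := by
      decide
    rcases D3 _ (n9 d6) with ⟨p, q, t⟩ | ⟨p, q, t⟩ | ⟨p, q, t⟩
    · exact ((tr _ (L.tri t)).1 d6).elim (n45 _) (n45 _)
    · have e := (tr _ (L.tri t)).2 d6
      obtain ⟨j, -, h2⟩ := mem q (by simp [show deg q = 3312 from e])
      rw [h, show deg q = 3312 from e] at h2
      revert j; decide
    · have e := t.deg.1.trans d6
      obtain ⟨j, h1, h2⟩ := mem p (by simp [e])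
      rw [h, e] at h2
      obtain rfl : j = 6 := by clear h1; revert j; decide
      exact t.ab h1
  · have : ∃ φ ∈ [a, b, c'], vlD (deg φ) * deg φ = -12880 := by
      simp only [List.mem_cons, List.not_mem_nil, or_false] at k
      rcases k with k | k | k <;> exact ⟨_, by simp, k.symm⟩
    obtain ⟨φ, -, h⟩ := this
    have dφ : deg φ = 12880 := by unfold vlD at h; split_ifs at h <;> omega
    have := deg_sq_list (l := [ξ, ψ i, ψ j, φ]) (by simp [ne_of_deg, *])
    rw [L.hN] at this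
    simp [*] at this

end Loc
end MQ
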