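import Cfsg.Agent.MQ.NA

/-! The partners of a character of degree 3840. -/

set_option autoImplicit false
set_option linter.unusedSectionVars false

namespace MQ
open Cfsg H8 H2 L D3 Subgroup
open scoped ComplexConjugate

namespace O

/-- the degrees other than 45, by their 2-part -/
def CL (k : ℕ) : List ℕ :=
  if k = 1 then [1, 11, 23, 231, 253, 483, 495, 759, 1035, 1265, 1771, 2277, 3795, 5313, 6831, 8855, 10395, 11385] else
  if k = 2 then [22, 230, 506, 770, 990, 1242, 1518, 2530, 3542, 4554, 4830, 7590, 10626, 13662] else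
  if k = 4 then [12, 252, 276, 540, 1012, 1540, 2772, 3036, 5060, 5796, 7084, 9108, 12420, 15180] else
  if k = 8 then [264, 1288, 2024, 2760, 5544, 6072, 10120, 14168] else
  if k = 16 then [528, 3024, 3312, 4048, 12144, 12880] else
  if k = 32 then [736, 1760, 8096, 15456] else
  if k = 64 then [3520, 6336, 7360] else
  if k = 128 then [8832, 9856, 12672] else
  if k = 256 then [3840] else
  if k = 1024 then [1024] else
  []

/-- the signed degrees -/
def SL (k : ℕ) : List ℤ := (CL k).flatMap fun d : ℕ => [(d : ℤ), -(d : ℤ)]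

/-- signed `tr` -/
def trS (a : ℤ) : ℤ := a.sign * trD a.natAbs

/-- signed `vl` -/
def vlS (a : ℤ) : ℤ := a.sign * vlD a.natAbs

theorem cl_mem : ∀ d ∈ 1 :: DG, d ≠ 45 → d ∈ CL (Nat.gcd d 1024) ∧
    Nat.gcd d 1024 ∈ [1, 2, 4, 8, 16, 32, 64, 128, 256, 1024] := by decide +kernel

set_option synthInstance.maxSize 4096 in
set_option synthInstance.maxHeartbeats 400000 in
theorem chk : ∀ k ∈ [1, 2, 4, 8, 16, 32, 64, 128, 256, 1024], ∀ a ∈ SL k, ∀ b ∈ SL k, a ≤ b →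
    ∀ c ∈ SL k, b ≤ c → c ≤ 7680 - (a + b + c) → 7680 - (a + b + c) ∈ SL k →
    trS a + trS b + trS c + trS (7680 - (a + b + c)) = -4 →
    vlS a + vlS b + vlS c + vlS (7680 - (a + b + c)) = 2 →
    (a, b, c) ∈ [((540 : ℤ), (540 : ℤ), (1540 : ℤ)), (-990, -990, 4830), (528, 528, 3312),
      (-3520, -3520, 7360), (-3840, 3840, 3840), (-8832, -8832, 12672)] := by decide +kernel

variable {G : Type*} [Group G] [Fintype G]

theorem sgn {s : ℤ} (hs : s = 1 ∨ s = -1) (χ : IrrCharacter G) :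
    (s * deg χ).sign = s ∧ (s * deg χ).natAbs = deg χ := by
  have := deg_pos χ
  rcases hs with rfl | rfl
  · simp [Int.sign_natCast_of_ne_zero this.ne']
  · simp [Int.sign_natCast_of_ne_zero this.ne']

theorem of_q {s q : ℤ} (hs : s = 1 ∨ s = -1) {χ : IrrCharacter G} (h : s * deg χ = q) :
    s = q.sign ∧ deg χ = q.natAbs := by
  subst h
  exact ⟨(sgn hs χ).1.symm, (sgn hs χ).2.symm⟩

theorem gcd_dvd {a b : ℕ} (h : ∀ k, 2 ^ k ∣ a → 2 ^ k ∣ b) : Nat.gcd a 1024 ∣ Nat.gcd b 1024 := by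
  obtain ⟨k, -, e⟩ := (Nat.dvd_prime_pow Nat.prime_two (m := 10)).1 (Nat.gcd_dvd_right a 1024)
  exact Nat.dvd_gcd (e ▸ h k (e ▸ Nat.gcd_dvd_left a 1024)) (Nat.gcd_dvd_right a 1024)

theorem deg_list_le {l : List (IrrCharacter G)} (hl : l.Nodup) :
    (l.map fun χ => (deg χ : ℤ) * deg χ).sum ≤ Nat.card G := by
  have h := sq_list_le hl (1 : G)
  rw [show Cx (1 : G) = ⊤ from eq_top_iff.mpr fun g _ => by simp [mem_Cx], card_top] at h
  have e : ∀ χ : IrrCharacter G, Complex.normSq (χ.1 1) = (((deg χ : ℤ) * deg χ : ℤ) : ℝ) :=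
    fun χ => by rw [deg_eq]; simp [Complex.normSq_natCast]
  simp only [e] at h
  have e2 : (l.map fun χ => (((deg χ : ℤ) * deg χ : ℤ) : ℝ)).sum =
      (((l.map fun χ => (deg χ : ℤ) * deg χ).sum : ℤ) : ℝ) := by
    rw [Int.cast_list_sum, List.map_map]; rfl
  rw [e2] at h
  exact_mod_cast h

end O
open O

variable {G : Type*} [Group G] [Fintype G] [IsSimpleGroup G] {x y r : G}

namespace Loc
variable (L : Loc x y)
include L

theorem no46 {g : G} (h2 : 2 ∣ orderOf g) : ¬ 23 ∣ orderOf g := fun h => by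
  have o := orderOf_pow_orderOf_div (orderOf_pos g).ne' h2
  refine L.hx.not_dvd_card_Cx L.vx (z := g ^ (orderOf g / 2)) (fun e => ?_) (by rw [o]; decide)
    (h.trans (orderOf_dvd_natCard _ (mem_Cx.2 (Commute.self_pow g _).eq)))
  rw [e, orderOf_one] at o
  omega

theorem eq_one_of_reg {g : G} (h2 : ¬ 2 ∣ orderOf g) (h3 : ¬ 3 ∣ orderOf g) (h5 : ¬ 5 ∣ orderOf g)
    (h7 : ¬ 7 ∣ orderOf g) (h11 : ¬ 11 ∣ orderOf g) (h23 : ¬ 23 ∣ orderOf g) : g = 1 := by
  have c : ∀ p : ℕ, p.Prime → ¬ p ∣ orderOf g → (orderOf g).Coprime p := fun p hp h =>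
    ((Nat.Prime.coprime_iff_not_dvd hp).2 h).symm
  have h := orderOf_dvd_natCard g
  rw [L.hN, show 244823040 = 2 ^ 10 * 3 ^ 3 * 5 * 7 * 11 * 23 from rfl] at h
  refine orderOf_eq_one_iff.1 (Nat.Coprime.eq_one_of_dvd ?_ h)
  exact ((((((c 2 (by norm_num) h2).pow_right _).mul_right
    ((c 3 (by norm_num) h3).pow_right _)).mul_right (c 5 (by norm_num) h5)).mul_right
    (c 7 (by norm_num) h7)).mul_right (c 11 (by norm_num) h11)).mul_right (c 23 (by norm_num) h23)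

/-- the degrees 540 and 1540 are not linked -/
theorem not_B2 {E ψ : IrrCharacter G} (dE : deg E = 540) (dψ : deg ψ = 1540) :
    ¬ UU 2 (ww 2 E ψ) := fun hU => by
  classical
  have hN := L.hN
  have ch : IsCharacter G (fun g => ψ.1 g * conj (E.1 g)) :=
    char_mul (irr_isCharacter ψ.2) (char_conj (irr_isCharacter E.2))
  have hu := frob (q := 2) (p := 23) (by decide) ch
  have z3 : ∀ g, 3 ∣ orderOf g → E.1 g = 0 := fun g hg =>
    irr_eq_zero_of_defect_zero (p := 3) E (m := 453376) (by rw [hN, dE]) (by decide) hg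
  have z5 : ∀ g, 5 ∣ orderOf g → E.1 g = 0 := fun g hg =>
    irr_eq_zero_of_defect_zero (p := 5) E (m := 453376) (by rw [hN, dE]) (by decide) hg
  have z7 : ∀ g, 7 ∣ orderOf g → ψ.1 g = 0 := fun g hg =>
    irr_eq_zero_of_defect_zero (p := 7) ψ (m := 158976) (by rw [hN, dψ]) (by decide) hg
  have z11 : ∀ g, 11 ∣ orderOf g → ψ.1 g = 0 := fun g hg =>
    irr_eq_zero_of_defect_zero (p := 11) ψ (m := 158976) (by rw [hN, dψ]) (by decide) hg
  have key : ∀ g, cf 2 ψ.1 g * conj (E.1 g) = (if g = 1 then 1540 * 540 else 0) +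
      (ψ.1 g * conj (E.1 g) - regInd 23 g * (ψ.1 g * conj (E.1 g))) := fun g => by
    have r1 : ¬ 23 ∣ orderOf g → regInd 23 g = 1 := fun h => by
      simp [regInd, Reg_iff_not_dvd.mpr h]
    by_cases h1 : g = 1
    · subst h1
      rw [cf_one, r1 (by simp), deg_eq, deg_eq, dE, dψ, map_natCast]; simp
    rw [if_neg h1, zero_add]
    by_cases h2 : 2 ∣ orderOf g
    · rw [cf_sing _ h2, r1 (L.no46 h2)]; ring
    rw [cf_reg _ h2]
    by_cases h23 : 23 ∣ orderOf g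
    · simp [regInd, mt Reg_iff_not_dvd.mp (not_not.mpr h23)]
    rw [r1 h23]
    by_cases h3 : 3 ∣ orderOf g
    · simp [z3 g h3]
    by_cases h5 : 5 ∣ orderOf g
    · simp [z5 g h5]
    by_cases h7 : 7 ∣ orderOf g
    · simp [z7 g h7]
    by_cases h11 : 11 ∣ orderOf g
    · simp [z11 g h11]
    exact absurd (L.eq_one_of_reg h2 h3 h5 h7 h11 h23) h1
  have o : classInner ψ.1 E.1 = 0 := inner_ne (ne_of_deg (by omega))
  have e := ww_eq (p := 2) E ψ
  unfold classInner at e o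
  simp only [key, Finset.sum_add_distrib, Finset.sum_sub_distrib, Finset.sum_ite_eq',
    Finset.mem_univ, if_true] at e
  rw [hN] at e o hu
  rw [dψ] at e
  refine hU.not_MM ?_
  have e2 : ww 2 E ψ = ((2 : ℕ) : ℂ) * (((270 : ℕ) : ℂ) - ((79488 : ℕ) : ℂ) *
      ((∑ g, regInd 23 g * (ψ.1 g * conj (E.1 g))) / ((244823040 : ℕ) : ℂ))) := by
    push_cast at e o ⊢
    linear_combination (1 / 1540) * e + 158976 * o
  rw [e2]
  exact MM_p.mul_II ((II_natCast _).sub ((II_natCast _).mul hu))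

/-- the partners `3520, 3520, 7360, 7360` are too large -/
theorem not_B4 (n23 : ∀ χ : IrrCharacter G, deg χ ≠ 23) {χ a b c d : IrrCharacter G}
    (ab : a ≠ b) (cd : c ≠ d) (dχ : deg χ = 3840) (da : deg a = 3520) (db : deg b = 3520)
    (dc : deg c = 7360) (dd : deg d = 7360) : False := by
  obtain ⟨r, h⟩ := exists_defOne (G := G) (p := 5) (m := 48964608) (by rw [L.hN]) (by norm_num)
  obtain ⟨F5⟩ := exists_full h (n := 4) rfl (L.e5 h)
  obtain ⟨⟨-, d0⟩, ⟨-, d1⟩, -⟩ := L.b5 n23 F5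
  obtain ⟨d2, d3⟩ := L.b5c n23 F5
  obtain ⟨F⟩ := L.full
  have ne : ∀ {u v : IrrCharacter G}, deg u ≠ deg v → u ≠ v := fun h => ne_of_deg h
  obtain ⟨t, h1, h2, h3, -, h4, -⟩ := L.b11 F (l := [χ, c, d, F5.c 3])
    (by simp [cd, ne (show deg χ ≠ deg c by omega), ne (show deg χ ≠ deg d by omega),
      ne (show deg χ ≠ deg (F5.c 3) by omega), ne (show deg c ≠ deg (F5.c 3) by omega),
      ne (show deg d ≠ deg (F5.c 3) by omega)])
    (by simp [dχ, dc, dd, d3, vlD])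
  have nd : ([a, b, F5.c 0, F5.c 1, F5.c 2] ++ ([χ, c, d, F5.c 3] ++ t)).Nodup := by
    refine List.Nodup.append ?_ h2 fun u hu hu' => (h3 u hu').2.2 ?_
    · simp [ab, ne (show deg a ≠ deg (F5.c 0) by omega), ne (show deg a ≠ deg (F5.c 1) by omega),
        ne (show deg a ≠ deg (F5.c 2) by omega), ne (show deg b ≠ deg (F5.c 0) by omega),
        ne (show deg b ≠ deg (F5.c 1) by omega), ne (show deg b ≠ deg (F5.c 2) by omega),
        F5.inj.eq_iff]
    · simp only [List.mem_cons, List.not_mem_nil, or_false] at hu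
      rcases hu with rfl | rfl | rfl | rfl | rfl <;> simp [da, db, d0, d1, d2, vlD]
  have le := deg_list_le nd
  have q : ∀ u : IrrCharacter G, -4254 * (vlD (deg u) * deg u) - 4524129 ≤ (deg u : ℤ) * deg u :=
    fun u => by
      unfold vlD
      split_ifs <;> nlinarith [sq_nonneg ((deg u : ℤ) - 2127), sq_nonneg ((deg u : ℤ) + 2127)]
  rw [L.hN] at le
  match t, h1 with
  | [t1, t2, t3, t4, t5, t6], _ =>
    simp only [List.cons_append, List.nil_append, List.map_cons, List.map_nil, List.sum_cons,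
      List.sum_nil, da, db, dc, dd, dχ, d0, d1, d2, d3] at le h4
    have v1 : vlD 3840 = 1 := rfl
    have v2 : vlD 7360 = 1 := rfl
    have v3 : vlD 5796 = -1 := rfl
    rw [v1, v2, v3] at h4
    have := q t1; have := q t2; have := q t3; have := q t4; have := q t5; have := q t6
    push_cast at le h4
    linarith

theorem val1 (χ : IrrCharacter G) : deg χ ∈ 1 :: DG ∧ tr x χ = trD (deg χ) ∧
    vl y χ = vlD (deg χ) := by
  by_cases h : χ = one1 G
  · subst h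
    refine ⟨by simp [deg_one1], ?_, ?_⟩
    · rw [deg_one1]; exact tr_eq' (a := 1) (by simp)
    · rw [deg_one1]; exact vl_eq (a := 1) (by simp)
  · exact ⟨List.mem_cons_of_mem _ (L.dg h), L.trd h, L.vld h⟩

/-- THE PARTNERS OF A CHARACTER OF DEGREE 3840 -/
theorem opt (n23 : ∀ χ : IrrCharacter G, deg χ ≠ 23) (n45 : ∀ χ : IrrCharacter G, deg χ ≠ 45)
    {χ : IrrCharacter G} (dχ : deg χ = 3840) :
    (∃ S : Finset (IrrCharacter G), S.card = 4 ∧ χ ∈ S ∧ ∀ ψ ∈ S, deg ψ = 3840) ∨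
    ∃ ψ ε, DB χ ψ ε := by
  classical
  rcases d2 (by rw [L.hN]; decide) (by rw [L.hN]; decide) χ (by omega) (by omega) with
    ⟨S, h1, h2, h3⟩ | ⟨ψ', inj', ne', ε', hε', reg', sing', hU', h2'⟩
  · refine .inl ⟨S, h1, h2, fun ψ hψ => ?_⟩
    have : ∀ d ∈ 1 :: DG, d % 256 = 0 → d % 512 ≠ 0 → d = 3840 := by decide +kernel
    have := this _ (L.val1 ψ).1
    have := h3 ψ hψ
    omega
  let σ := Tuple.sort fun i => ε' i * deg (ψ' i)
  have mono : Monotone ((fun i => ε' i * deg (ψ' i)) ∘ σ) := Tuple.monotone_sort _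
  obtain ⟨ψ, hψ⟩ : ∃ ψ, ψ = ψ' ∘ σ := ⟨_, rfl⟩
  obtain ⟨ε, hε0⟩ : ∃ ε, ε = ε' ∘ σ := ⟨_, rfl⟩
  have hs : ∀ g, ∑ i, (ε' i : ℂ) * (ψ' i).1 g = ε 0 * (ψ 0).1 g + ε 1 * (ψ 1).1 g +
      ε 2 * (ψ 2).1 g + ε 3 * (ψ 3).1 g := fun g => by
    rw [← Equiv.sum_comp σ, Fin.sum_univ_four, hψ, hε0]; rfl
  have inj : Function.Injective ψ := hψ ▸ inj'.comp σ.injective
  have ne : ∀ i, ψ i ≠ χ := fun i => hψ ▸ ne' _
  have hε : ∀ i, ε i = 1 ∨ ε i = -1 := fun i => hε0 ▸ hε' _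
  have hU : ∀ i j, UU 2 (ww 2 (ψ i) (ψ j)) := fun i j => hψ ▸ hU' _ _
  have h2 : ∀ i, Nat.gcd (deg (ψ i)) 1024 = Nat.gcd (deg (ψ 0)) 1024 := fun i =>
    Nat.dvd_antisymm (gcd_dvd (hψ ▸ h2' _ _)) (gcd_dvd (hψ ▸ h2' _ _))
  have m : ∀ i j, i ≤ j → ε i * deg (ψ i) ≤ ε j * deg (ψ j) := fun i j h => by
    rw [hψ, hε0]; exact mono h
  simp only [hs] at reg' sing'
  have sl : ∀ i, ε i * deg (ψ i) ∈ SL (Nat.gcd (deg (ψ 0)) 1024) := fun i => by
    have := (cl_mem _ (L.val1 (ψ i)).1 (n45 _)).1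
    rw [h2] at this
    refine List.mem_flatMap.2 ⟨_, this, ?_⟩
    rcases hε i with e | e <;> simp [e]
  have t : ∀ i, trS (ε i * deg (ψ i)) = ε i * tr x (ψ i) ∧ vlS (ε i * deg (ψ i)) = ε i * vl y (ψ i) :=
    fun i => by
      unfold trS vlS
      rw [(sgn (hε i) _).1, (sgn (hε i) _).2, (L.val1 _).2.1, (L.val1 _).2.2]
      exact ⟨rfl, rfl⟩
  have e1 : 7680 - (ε 0 * deg (ψ 0) + ε 1 * deg (ψ 1) + ε 2 * deg (ψ 2)) = ε 3 * deg (ψ 3) := by
    have := reg' 1 (by simp)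
    simp only [deg_eq, dχ] at this
    have : (2 * 3840 : ℤ) = ε 0 * deg (ψ 0) + ε 1 * deg (ψ 1) + ε 2 * deg (ψ 2) +
      ε 3 * deg (ψ 3) := by exact_mod_cast this
    omega
  have e2 : ε 0 * tr x (ψ 0) + ε 1 * tr x (ψ 1) + ε 2 * tr x (ψ 2) + ε 3 * tr x (ψ 3) = -4 := by
    have a1 := reg' x (by rw [L.hx.ord]; decide)
    have a2 := reg' x⁻¹ (by rw [orderOf_inv, L.hx.ord]; decide)
    have a3 := L.tr_x χ
    rw [(L.val1 χ).2.1, dχ, show trD 3840 = -2 from rfl] at a3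
    have : ((ε 0 * tr x (ψ 0) + ε 1 * tr x (ψ 1) + ε 2 * tr x (ψ 2) + ε 3 * tr x (ψ 3) : ℤ) : ℂ) =
        ((-4 : ℤ) : ℂ) := by
      push_cast at a3 ⊢
      simp only [← L.tr_x]
      linear_combination 2 * a3 - a1 - a2
    exact_mod_cast this
  have e3 : ε 0 * vl y (ψ 0) + ε 1 * vl y (ψ 1) + ε 2 * vl y (ψ 2) + ε 3 * vl y (ψ 3) = 2 := by
    have a1 := reg' y (by rw [L.hy.ord]; decide)
    simp only [L.vl_y] at a1
    rw [(L.val1 χ).2.2, dχ, show vlD 3840 = 1 from rfl] at a1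
    have : ((ε 0 * vl y (ψ 0) + ε 1 * vl y (ψ 1) + ε 2 * vl y (ψ 2) + ε 3 * vl y (ψ 3) : ℤ) : ℂ) =
        ((2 : ℤ) : ℂ) := by
      push_cast at a1 ⊢
      linear_combination -a1
    exact_mod_cast this
  have hc := chk _ (cl_mem _ (L.val1 (ψ 0)).1 (n45 _)).2 _ (sl 0) _ (sl 1) (m 0 1 (by decide)) _
    (sl 2) (m 1 2 (by decide)) (e1 ▸ m 2 3 (by decide)) (e1 ▸ sl 3)
    (by rw [e1]; simp only [t, e2]) (by rw [e1]; simp only [t, e3])
  have n01 : ψ 0 ≠ ψ 1 := inj.ne (by decide)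
  have n23' : ψ 2 ≠ ψ 3 := inj.ne (by decide)
  simp only [List.mem_cons, Prod.mk.injEq, List.not_mem_nil, or_false] at hc
  rcases hc with ⟨a, b, c⟩ | ⟨a, b, c⟩ | ⟨a, b, c⟩ | ⟨a, b, c⟩ | ⟨a, b, c⟩ | ⟨a, b, c⟩ <;>
    rw [a, b, c] at e1 <;> obtain ⟨sa, da⟩ := of_q (hε 0) a <;> obtain ⟨sb, db⟩ := of_q (hε 1) b <;>
    obtain ⟨sc, dc⟩ := of_q (hε 2) c <;> obtain ⟨sd, dd⟩ := of_q (hε 3) e1.symm
  · exact absurd (hU 0 2) (L.not_B2 da dc)
  · refine .inr ⟨ψ, ε, inj, ne, hε, fun g hg => by rw [Fin.sum_univ_four, reg' g hg],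
      fun g hg => by rw [Fin.sum_univ_four, sing' g hg], fun i => ?_, 2, 3, by decide,
      dc.trans dd.symm, .inr dc⟩
    fin_cases i
    · simp [a]
    · simp [b]
    · simp [c]
    · simp [← e1]
  · refine .inr ⟨ψ, ε, inj, ne, hε, fun g hg => by rw [Fin.sum_univ_four, reg' g hg],
      fun g hg => by rw [Fin.sum_univ_four, sing' g hg], fun i => ?_, 2, 3, by decide,
      dc.trans dd.symm, .inl dc⟩
    fin_cases i
    · simp [a]
    · simp [b]
    · simp [c]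
    · simp [← e1]
  · exact (L.not_B4 n23 n01 n23' dχ da db dc dd).elim
  · refine .inl ⟨{χ, ψ 0, ψ 1, ψ 2}, ?_, by simp, fun u hu => ?_⟩
    · rw [Finset.card_eq_four]
      exact ⟨_, _, _, _, (ne 0).symm, (ne 1).symm, (ne 2).symm, n01, inj.ne (by decide),
        inj.ne (by decide), rfl⟩
    · simp only [Finset.mem_insert, Finset.mem_singleton] at hu
      rcases hu with rfl | rfl | rfl | rfl
      exacts [dχ, da, db, dc]
  · have := deg_list_le (l := [ψ 2, ψ 3]) (by simp [n23'])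
    rw [L.hN] at this
    simp [dc, dd] at this

end Loc
end MQ
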